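import Cfsg.Agent.H57.CohDescend

/-!
# A coherence criterion for the equality case of the extension criterion

This is the abstract part of Peterfalvi (9.11): a set `S₁` of `N` irreducible characters of a common degree
`D`, all other members having degree `b D` with `2 b ≤ N`.  In the case `2 b = N` the auxiliary integer of the
extension criterion is `0` or `1`; the value `1` for every member contradicts a norm bound on an auxiliary
virtual character.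
-/

set_option autoImplicit false

namespace Cfsg.Agent.H38.PF9

open Cfsg Cfsg.Agent.H26 Cfsg.Agent.H57
open scoped ComplexConjugate

variable {L : Type*} [Group L] [Fintype L] {G : Type*} [Group G] [Fintype G]
  {S : Set (L → ℂ)} {τ : (L → ℂ) → (G → ℂ)} {R : (L → ℂ) → Finset (G → ℂ)}

/-- A pair joins a coherent set once the auxiliary integer vanishes. -/
theorem adjoin_pair_of_coef (hS : IsCoherenceSystem S τ R) (d n : (L → ℂ) → ℕ)
    (hd : ∀ φ ∈ S, φ 1 = (d φ : ℂ)) (hn : ∀ φ ∈ S, classInner φ φ = (n φ : ℂ))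
    (S₁ : Finset (L → ℂ)) (hS₁ : ↑S₁ ⊆ S) (hS₁c : ∀ φ ∈ S₁, conjFun φ ∈ S₁)
    (hne : ∃ α ∈ zspanOn (↑S₁ : Set (L → ℂ)) {1}ᶜ, α ≠ 0) {τ₁ : (L → ℂ) → (G → ℂ)}
    (hτ₁ : IsLinearIsometryOn (zspan (↑S₁ : Set (L → ℂ))) τ₁)
    (hag : ∀ α ∈ zspanOn (↑S₁ : Set (L → ℂ)) {1}ᶜ, τ₁ α = τ α) (χ : L → ℂ) (hχ : χ ∈ S) (hχ₁ : χ ∉ S₁)
    (hχ₂ : conjFun χ ∉ S₁) (χ₁ : L → ℂ) (hχ₁S : χ₁ ∈ S₁) (a : ℕ) (ha : d χ = a * d χ₁)
    (hcoef : classInner (τ (χ - (a : ℤ) • χ₁)) (τ₁ χ₁) = -((a : ℂ) * n χ₁)) :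
    IsCoherent (↑S₁ ∪ {χ, conjFun χ} : Set (L → ℂ)) {1}ᶜ τ := by
  classical
  obtain ⟨α₀, hα₀, hα₀ne⟩ := hne
  have hpos : ∀ φ ∈ S, 0 < n φ := fun φ hφ => by
    obtain ⟨m, hm, e⟩ := sys_norm hS hφ
    have : m = n φ := by exact_mod_cast (e.symm.trans (hn φ hφ))
    omega
  obtain ⟨hmem, y, hy, hyrel⟩ := ext_coef S S₁ hS₁ τ τ₁ hS.isometry hτ₁ hag hS.orthogonal d n hd
    (fun φ hφ => hn φ (hS₁ hφ)) χ χ₁ hχ hχ₁ hχ₁S a ha
  have h₁S : χ₁ ∈ S := hS₁ hχ₁S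
  set x := τ (χ - (a : ℤ) • χ₁) with hx
  have hxgen : IsGeneralizedCharacter G x := hS.isometry.2.2.2 _ hmem
  have hcχ : conjFun χ ∈ S := hS.conj_mem χ hχ
  have ho1 : classInner χ χ₁ = 0 := hS.orthogonal χ hχ χ₁ h₁S (fun e => hχ₁ (e ▸ hχ₁S))
  have ho2 : classInner χ₁ χ = 0 := hS.orthogonal χ₁ h₁S χ hχ (fun e => hχ₁ (e ▸ hχ₁S))
  have ho3 : classInner χ₁ (conjFun χ) = 0 :=
    hS.orthogonal χ₁ h₁S _ hcχ (fun e => hχ₂ (e ▸ hχ₁S))
  have ho4 : classInner (conjFun χ) χ = 0 := hS.orthogonal _ hcχ χ hχ (hS.conj_ne χ hχ)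
  have hncc : classInner (conjFun χ) (conjFun χ) = n χ := by simp [classInner_conjFun, hn χ hχ]
  set T := τ (χ - conjFun χ) with hT
  have hxT : classInner x T = n χ := by
    rw [hx, hT, hS.isometry.2.2.1 _ hmem _ (sys_diff_mem hS hχ)]
    simp only [classInner_sub_left, classInner_sub_right, classInner_zsmul_left, hn χ hχ,
      sys_inner_conj hS hχ, ho2, ho3]
    ring
  have hxx : classInner x x = ((n χ + a ^ 2 * n χ₁ : ℕ) : ℂ) := by
    rw [hx, hS.isometry.2.2.1 _ hmem _ hmem]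
    simp only [classInner_sub_left, classInner_sub_right, classInner_zsmul_left,
      classInner_zsmul_right, hn χ hχ, hn χ₁ h₁S, ho1, ho2]
    push_cast
    ring
  have hτ₁R : ∀ φ ∈ S₁, ∀ α ∈ R χ, classInner (τ₁ φ) α = 0 := by
    intro φ hφ α hα
    refine sys_ext_orth hS hS₁ hS₁c hτ₁ hag hφ α fun β hβ => ?_
    rw [classInner_comm, sys_disjoint hS hχ (hS₁ hφ) (fun e => hχ₁ (e ▸ hφ))
      (fun e => hχ₂ (e ▸ hφ)) hβ hα, map_zero]
  set u := y χ₁ + a * n χ₁ with hu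
  have hd1 : (0 : ℝ) < d χ₁ := by
    obtain ⟨k1, hk1, hk1e⟩ := sys_degree hS h₁S
    have : k1 = d χ₁ := by exact_mod_cast hk1e.symm.trans (hd χ₁ h₁S)
    exact_mod_cast this ▸ hk1
  have hu0 : u = 0 := by
    have h := (hy χ₁ hχ₁S).symm.trans hcoef
    rw [hu]
    have h2 : y χ₁ = -(a * n χ₁ : ℤ) := by exact_mod_cast h
    omega
  have hy1 : y χ₁ = -(a * n χ₁ : ℤ) := by omega
  have hyz : ∀ φ ∈ S₁, φ ≠ χ₁ → y φ = 0 := fun φ hφ hne => by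
    have h := hyrel φ hφ hne
    rw [hu0, mul_zero] at h
    have : (d χ₁ : ℤ) ≠ 0 := by exact_mod_cast hd1.ne'
    exact (mul_eq_zero.1 h).resolve_right this
  have hm1 : χ₁ ∈ zspan (↑S₁ : Set (L → ℂ)) := zspan_subset_of_mem (Finset.mem_coe.2 hχ₁S)
  set A := x + (a : ℤ) • τ₁ χ₁ with hA
  have hAgen : IsGeneralizedCharacter G A := gen_add hxgen (gen_zsmul (hτ₁.2.2.2 _ hm1) _)
  have hAτ : ∀ φ ∈ S₁, classInner A (τ₁ φ) = 0 := by
    intro φ hφ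
    rw [hA, classInner_add_left, classInner_zsmul_left, hy φ hφ, gram_insert S₁ τ₁ hτ₁ hχ₁S hφ]
    by_cases e : φ = χ₁
    · subst e; rw [hy1, hn φ h₁S]; push_cast; ring
    · rw [hyz φ hφ e, hS.orthogonal χ₁ h₁S φ (hS₁ hφ) (Ne.symm e)]; simp
  have hτA : ∀ φ ∈ S₁, classInner (τ₁ φ) A = 0 := fun φ hφ => by
    rw [classInner_comm, hAτ φ hφ, map_zero]
  have hAA : classInner A A = n χ := by
    conv_lhs => arg 2; rw [hA]
    rw [classInner_add_right, classInner_zsmul_right, hAτ χ₁ hχ₁S, mul_zero, add_zero, hA,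
      classInner_add_left, classInner_zsmul_left, hxx, classInner_comm x, hy χ₁ hχ₁S, hy1]
    simp only [Int.cast_neg, Int.cast_mul, Int.cast_natCast, map_neg, map_mul, Complex.conj_natCast]
    push_cast
    ring
  have hTτ : ∀ φ ∈ S₁, classInner (τ₁ φ) T = 0 := by
    intro φ hφ
    rw [hT, hS.sum_eq χ hχ, classInner_sum_right]
    exact Finset.sum_eq_zero fun α hα => hτ₁R φ hφ α hα
  have hτT : ∀ φ ∈ S₁, classInner T (τ₁ φ) = 0 := fun φ hφ => by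
    rw [classInner_comm, hTτ φ hφ, map_zero]
  have hAT : classInner A T = n χ := by
    rw [hA, classInner_add_left, classInner_zsmul_left, hxT, hTτ χ₁ hχ₁S, mul_zero, add_zero]
  have hTA : classInner T A = n χ := by rw [classInner_comm, hAT, Complex.conj_natCast]
  have hTT : classInner T T = 2 * n χ := by
    rw [hT, hS.isometry.2.2.1 _ (sys_diff_mem hS hχ) _ (sys_diff_mem hS hχ)]
    simp only [classInner_sub_left, classInner_sub_right, hn χ hχ, sys_inner_conj hS hχ, ho4, hncc]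
    ring
  -- assemble
  have hcne : conjFun χ ≠ χ := hS.conj_ne χ hχ
  set F := S₁ ∪ {χ, conjFun χ} with hF
  have hFc : (↑F : Set (L → ℂ)) = ↑S₁ ∪ {χ, conjFun χ} := by simp [hF]
  have hFS : ∀ s ∈ F, s ∈ S := by
    intro s hs
    rcases Finset.mem_union.1 hs with h | h
    · exact hS₁ h
    · rcases Finset.mem_insert.1 h with rfl | h
      · exact hχ
      · rw [Finset.mem_singleton.1 h]; exact hcχ
  set f : (L → ℂ) → (G → ℂ) := fun s => if s = χ then A else if s = conjFun χ then A - T else τ₁ s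
    with hf
  have hf1 : f χ = A := by simp [hf]
  have hf2 : f (conjFun χ) = A - T := by simp [hf, hcne]
  have hf3 : ∀ s ∈ S₁, f s = τ₁ s := fun s hs => by
    have e1 : s ≠ χ := fun e => hχ₁ (e ▸ hs)
    have e2 : s ≠ conjFun χ := fun e => hχ₂ (e ▸ hs)
    simp [hf, e1, e2]
  have hcases : ∀ s ∈ F, s = χ ∨ s = conjFun χ ∨ s ∈ S₁ := by
    intro s hs
    simp only [hF, Finset.mem_union, Finset.mem_insert, Finset.mem_singleton] at hs
    tauto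
  rw [← hFc]
  refine coherent_of_values f (fun s hs => sys_ne_zero hS (hFS s hs))
    (fun s hs t ht => hS.orthogonal s (hFS s hs) t (hFS t ht)) ?_ ?_
    ⟨α₀, zspanOn_mono (fun s hs => by rw [hFc]; exact Or.inl hs) hα₀, hα₀ne⟩ ?_
  · intro s hs
    rcases hcases s hs with rfl | rfl | h
    · rw [hf1]; exact hAgen
    · rw [hf2]; exact gen_sub hAgen (hS.isometry.2.2.2 _ (sys_diff_mem hS hχ))
    · rw [hf3 s h]; exact hτ₁.2.2.2 s (zspan_subset_of_mem (Finset.mem_coe.2 h))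
  · have hc1 : ∀ t ∈ S₁, classInner χ t = 0 := fun t ht =>
      hS.orthogonal χ hχ t (hS₁ ht) (fun e => hχ₁ (e ▸ ht))
    have hc2 : ∀ t ∈ S₁, classInner t χ = 0 := fun t ht => by rw [classInner_comm, hc1 t ht, map_zero]
    have hc3 : ∀ t ∈ S₁, classInner (conjFun χ) t = 0 := fun t ht =>
      hS.orthogonal _ hcχ t (hS₁ ht) (fun e => hχ₂ (e ▸ ht))
    have hc4 : ∀ t ∈ S₁, classInner t (conjFun χ) = 0 := fun t ht => by
      rw [classInner_comm, hc3 t ht, map_zero]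
    intro s hs t ht
    rcases hcases s hs with rfl | rfl | h <;> rcases hcases t ht with rfl | rfl | h'
    · rw [hf1, hAA, hn _ hχ]
    · rw [hf1, hf2, classInner_sub_right, hAA, hAT, sub_self, sys_inner_conj hS hχ]
    · rw [hf1, hf3 _ h', hAτ _ h', hc1 _ h']
    · rw [hf2, hf1, classInner_sub_left, hAA, hTA, sub_self, ho4]
    · rw [hf2, hncc]
      simp only [classInner_sub_left, classInner_sub_right, hAA, hAT, hTA, hTT]
      ring
    · rw [hf2, hf3 _ h', classInner_sub_left, hAτ _ h', hτT _ h', sub_zero, hc3 _ h']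
    · rw [hf3 _ h, hf1, hτA _ h, hc2 _ h]
    · rw [hf3 _ h, hf2, classInner_sub_right, hτA _ h, hTτ _ h, sub_zero, hc4 _ h]
    · rw [hf3 _ h, hf3 _ h', gram_insert S₁ τ₁ hτ₁ h h']
  · intro c hc
    have hdis : Disjoint S₁ ({χ, conjFun χ} : Finset (L → ℂ)) := by simp [hχ₁, hχ₂]
    rw [hF, Finset.sum_union hdis, Finset.sum_union hdis, Finset.sum_pair hcne.symm,
      Finset.sum_pair hcne.symm, hf1, hf2] at *
    rw [Finset.sum_congr rfl (fun s hs => by rw [hf3 s hs] : ∀ s ∈ S₁, c s • f s = c s • τ₁ s)]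
    set p := c χ
    set q := c (conjFun χ)
    set θ := ∑ s ∈ S₁, c s • s + ((p + q) * a : ℤ) • χ₁ with hθ
    have hθspan : θ ∈ zspan (↑S₁ : Set (L → ℂ)) :=
      zspan_add (zspan_sum fun s hs => zspan_zsmul (zspan_subset_of_mem (Finset.mem_coe.2 hs)) _)
        (zspan_zsmul hm1 _)
    have hθ1 : θ 1 = 0 := by
      have e := hc
      simp only [Pi.add_apply, Finset.sum_apply, Pi.smul_apply, Pi.mul_apply, Pi.intCast_apply, zsmul_eq_mul] at e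
      simp only [hθ, Pi.add_apply, Finset.sum_apply, Pi.smul_apply, Pi.mul_apply, Pi.intCast_apply, zsmul_eq_mul, hd χ₁ h₁S]
      rw [sys_conj_degree hS hχ, hd χ hχ] at e
      rw [← e, ha]
      push_cast
      ring
    have hθmem : θ ∈ zspanOn (↑S₁ : Set (L → ℂ)) {1}ᶜ := mem_degZero.2 ⟨hθspan, hθ1⟩
    have e1 : ∑ s ∈ S₁, c s • s + (p • χ + q • conjFun χ)
        = θ + ((p + q) • (χ - (a : ℤ) • χ₁) - q • (χ - conjFun χ)) := by
      rw [hθ, smul_sub, smul_sub, smul_smul, add_smul]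
      abel
    have hm2 : (p + q) • (χ - (a : ℤ) • χ₁) ∈ zspanOn S {1}ᶜ := (zspanOnSub S _).smul_mem _ hmem
    have hm3 : q • (χ - conjFun χ) ∈ zspanOn S {1}ᶜ := (zspanOnSub S _).smul_mem _ (sys_diff_mem hS hχ)
    rw [e1, hS.isometry.1 _ (zspanOn_mono hS₁ hθmem) _ ((zspanOnSub S _).sub_mem hm2 hm3),
      iso_degZero_sub hS.isometry hm2 hm3, hS.isometry.2.1 _ hmem,
      hS.isometry.2.1 _ (sys_diff_mem hS hχ), ← hag θ hθmem, ← hx, ← hT, hθ,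
      hτ₁.1 _ (zspan_sum fun s hs => zspan_zsmul (zspan_subset_of_mem (Finset.mem_coe.2 hs)) _) _
        (zspan_zsmul hm1 _),
      iso_zspan_sum hτ₁ _ _ (fun s hs => zspan_zsmul (zspan_subset_of_mem (Finset.mem_coe.2 hs)) _),
      hτ₁.2.1 _ hm1,
      Finset.sum_congr rfl (fun s hs => hτ₁.2.1 s (zspan_subset_of_mem (Finset.mem_coe.2 hs)) (c s)),
      hA]
    simp only [smul_add, smul_sub, smul_smul, add_smul, add_mul]
    abel


/-- In the equality case the auxiliary integer is `0`, or the image of `χ - b ζ` splits off a member of the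
span of `R χ` orthogonal to the images of `S₁`. -/
theorem tie_dichotomy (hS : IsCoherenceSystem S τ R) (d n : (L → ℂ) → ℕ)
    (hd : ∀ φ ∈ S, φ 1 = (d φ : ℂ)) (hn : ∀ φ ∈ S, classInner φ φ = (n φ : ℂ))
    (S₁ : Finset (L → ℂ)) (hS₁ : ↑S₁ ⊆ S) (hS₁c : ∀ φ ∈ S₁, conjFun φ ∈ S₁) (D : ℕ)
    (h₁ : ∀ φ ∈ S₁, d φ = D ∧ n φ = 1) {τ₁ : (L → ℂ) → (G → ℂ)}
    (hτ₁ : IsLinearIsometryOn (zspan (↑S₁ : Set (L → ℂ))) τ₁)
    (hag : ∀ α ∈ zspanOn (↑S₁ : Set (L → ℂ)) {1}ᶜ, τ₁ α = τ α) (χ : L → ℂ) (hχ : χ ∈ S) (hχ₁ : χ ∉ S₁)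
    (hχ₂ : conjFun χ ∉ S₁) (ζ : L → ℂ) (hζ : ζ ∈ S₁) (b : ℕ) (hb : d χ = b * D)
    (hN : S₁.card = 2 * b) :
    classInner (τ (χ - (b : ℤ) • ζ)) (τ₁ ζ) = -((b : ℂ) * n ζ) ∨
      (let X := τ (χ - (b : ℤ) • ζ) - (∑ φ ∈ S₁, τ₁ φ - (b : ℤ) • τ₁ ζ)
      classInner X X = n χ ∧ (∀ φ ∈ S₁, classInner X (τ₁ φ) = 0) ∧
        classInner X (τ (χ - conjFun χ)) = n χ ∧
        ∀ y : G → ℂ, (∀ α ∈ R χ, classInner y α = 0) → classInner X y = 0) := by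
  classical
  have hζS : ζ ∈ S := hS₁ hζ
  obtain ⟨hmem, y, hy, hyrel⟩ := ext_coef S S₁ hS₁ τ τ₁ hS.isometry hτ₁ hag hS.orthogonal d n hd
    (fun φ hφ => hn φ (hS₁ hφ)) χ ζ hχ hχ₁ hζ b (by rw [hb, (h₁ ζ hζ).1])
  have hD : D ≠ 0 := by
    obtain ⟨k, hk, hke⟩ := sys_degree hS hζS
    have : k = D := (h₁ ζ hζ).1 ▸ (by exact_mod_cast hke.symm.trans (hd ζ hζS) : k = d ζ)
    omega
  have hyu : ∀ φ ∈ S₁, φ ≠ ζ → y φ = y ζ + b := fun φ hφ hne => by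
    have h := hyrel φ hφ hne
    rw [(h₁ φ hφ).1, (h₁ ζ hζ).1, (h₁ ζ hζ).2, Nat.cast_one, mul_one, mul_comm (y φ)] at h
    exact mul_left_cancel₀ (by exact_mod_cast hD) h
  set x := τ (χ - (b : ℤ) • ζ) with hx
  set T := τ (χ - conjFun χ) with hT
  have hxgen : IsGeneralizedCharacter G x := hS.isometry.2.2.2 _ hmem
  have hτ₁R : ∀ φ ∈ S₁, ∀ α ∈ R χ, classInner (τ₁ φ) α = 0 := by
    intro φ hφ α hα
    refine sys_ext_orth hS hS₁ hS₁c hτ₁ hag hφ α fun β hβ => ?_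
    rw [classInner_comm, sys_disjoint hS hχ (hS₁ hφ) (fun e => hχ₁ (e ▸ hφ))
      (fun e => hχ₂ (e ▸ hφ)) hβ hα, map_zero]
  have ho1 : classInner χ ζ = 0 := hS.orthogonal χ hχ ζ hζS (fun e => hχ₁ (e ▸ hζ))
  have ho2 : classInner ζ χ = 0 := hS.orthogonal ζ hζS χ hχ (fun e => hχ₁ (e ▸ hζ))
  have ho3 : classInner ζ (conjFun χ) = 0 :=
    hS.orthogonal ζ hζS _ (hS.conj_mem χ hχ) (fun e => hχ₂ (e ▸ hζ))
  have hxT : classInner x T = n χ := by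
    rw [hx, hT, hS.isometry.2.2.1 _ hmem _ (sys_diff_mem hS hχ)]
    simp only [classInner_sub_left, classInner_sub_right, classInner_zsmul_left, hn χ hχ,
      sys_inner_conj hS hχ, ho2, ho3]
    ring
  have hxx : classInner x x = ((n χ + b ^ 2 : ℕ) : ℂ) := by
    rw [hx, hS.isometry.2.2.1 _ hmem _ hmem]
    simp only [classInner_sub_left, classInner_sub_right, classInner_zsmul_left,
      classInner_zsmul_right, hn χ hχ, hn ζ hζS, (h₁ ζ hζ).2, ho1, ho2]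
    push_cast
    ring
  obtain ⟨A₀, m, -, hA₀A₀, hnm, hxA₀, hA₀T, hA₀orth, -⟩ := sys_proj hS hχ hxgen hxT
  have hA₀τ : ∀ φ ∈ S₁, classInner A₀ (τ₁ φ) = 0 := fun φ hφ => hA₀orth _ (hτ₁R φ hφ)
  have hgram : ∀ φ ∈ S₁, ∀ ψ ∈ S₁, classInner (τ₁ φ) (τ₁ ψ) = if φ = ψ then 1 else 0 := by
    intro φ hφ ψ hψ
    rw [gram_insert S₁ τ₁ hτ₁ hφ hψ]
    split_ifs with e
    · subst e; rw [hn φ (hS₁ hφ), (h₁ φ hφ).2, Nat.cast_one]
    · exact hS.orthogonal φ (hS₁ hφ) ψ (hS₁ hψ) e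
  have hbessel := bessel S₁ (fun φ => τ₁ φ) (fun _ => (1 : ℝ)) (fun _ _ => one_pos)
    (fun φ hφ => by rw [hgram φ hφ φ hφ, if_pos rfl]; simp)
    (fun φ hφ ψ hψ hne => by rw [hgram φ hφ ψ hψ, if_neg hne])
    (x - A₀) (fun φ => (y φ : ℝ))
    (fun φ hφ => by rw [classInner_sub_left, hy φ hφ, hA₀τ φ hφ, sub_zero]; push_cast; rfl)
  rw [inner_self_sub_proj (hxA₀.trans hA₀A₀.symm), hxx, hA₀A₀] at hbessel
  simp only [Complex.sub_re, Complex.natCast_re, div_one] at hbessel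
  have hsq : ∑ φ ∈ S₁, (y φ : ℝ) ^ 2 = (y ζ : ℝ) ^ 2 + (2 * (b : ℝ) - 1) * ((y ζ : ℝ) + b) ^ 2 := by
    rw [← Finset.add_sum_erase _ _ hζ, Finset.sum_congr rfl (fun φ hφ => by
      rw [hyu φ (Finset.mem_of_mem_erase hφ) (Finset.ne_of_mem_erase hφ)] :
        ∀ φ ∈ S₁.erase ζ, (y φ : ℝ) ^ 2 = ((y ζ + b : ℤ) : ℝ) ^ 2),
      Finset.sum_const, Finset.card_erase_of_mem hζ, hN, nsmul_eq_mul,
      Nat.cast_sub (by have := Finset.card_pos.2 ⟨ζ, hζ⟩; omega)]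
    push_cast
    ring
  rw [hsq] at hbessel
  have hb0 : 0 < b := by have := Finset.card_pos.2 ⟨ζ, hζ⟩; omega
  have hnm' : (n χ : ℝ) ≤ m := by exact_mod_cast hnm
  push_cast at hbessel
  set u : ℤ := y ζ + b with hu
  have hu2 : (b : ℤ) * (u * (u - 1)) ≤ 0 := by
    have : ((b : ℝ) * ((u : ℝ) * ((u : ℝ) - 1))) ≤ 0 := by
      rw [hu]; push_cast; nlinarith
    exact_mod_cast this
  have hu01 : u = 0 ∨ u = 1 := by
    have h3 : u * (u - 1) ≤ 0 := by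
      by_contra h
      have : 0 < (b : ℤ) * (u * (u - 1)) := mul_pos (by exact_mod_cast hb0) (by omega)
      omega
    by_contra h
    rcases (show u ≤ -1 ∨ 2 ≤ u by omega) with h4 | h4 <;> nlinarith
  rcases hu01 with hu0 | hu1
  · refine Or.inl ?_
    rw [hy ζ hζ, (h₁ ζ hζ).2, show y ζ = -(b : ℤ) by omega]
    simp
  refine Or.inr ?_
  intro X
  have hcoef : ∀ φ ∈ S₁, y φ = 1 - if φ = ζ then (b : ℤ) else 0 := by
    intro φ hφ
    split_ifs with e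
    · subst e; omega
    · rw [hyu φ hφ e]; omega
  set P := ∑ φ ∈ S₁, τ₁ φ - (b : ℤ) • τ₁ ζ with hP
  have hPτ : ∀ φ ∈ S₁, classInner P (τ₁ φ) = (y φ : ℂ) := by
    intro φ hφ
    rw [hP, classInner_sub_left, classInner_zsmul_left, classInner_sum_left,
      Finset.sum_eq_single φ (fun ψ hψ hne => by rw [hgram ψ hψ φ hφ, if_neg hne])
        (fun h => absurd hφ h), hgram φ hφ φ hφ, if_pos rfl, hgram ζ hζ φ hφ, hcoef φ hφ]
    by_cases e : φ = ζ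
    · simp [e]
    · simp [e, Ne.symm e]
  have hxP : classInner x P = ((b ^ 2 : ℕ) : ℂ) := by
    rw [hP, classInner_sub_right, classInner_sum_right, classInner_zsmul_right, hy ζ hζ,
      Finset.sum_congr rfl hy, ← Int.cast_sum, Finset.sum_congr rfl hcoef, Finset.sum_sub_distrib,
      Finset.sum_ite_eq' S₁ ζ, if_pos hζ, Finset.sum_const, hN, hcoef ζ hζ, if_pos rfl]
    simp only [nsmul_eq_mul, mul_one, Int.cast_sub, Int.cast_natCast, Int.cast_mul, Int.cast_one, Nat.cast_mul, Nat.cast_ofNat, Int.cast_ofNat]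
    push_cast
    ring
  have hPP : classInner P P = ((b ^ 2 : ℕ) : ℂ) := by
    rw [← hxP]
    conv_lhs => arg 2; rw [hP]
    conv_rhs => arg 2; rw [hP]
    simp only [classInner_sub_right, classInner_sum_right, classInner_zsmul_right]
    rw [Finset.sum_congr rfl hPτ, hPτ ζ hζ, Finset.sum_congr rfl hy, hy ζ hζ]
  have hXX : classInner X X = n χ := by
    show classInner (x - P) (x - P) = _
    rw [inner_self_sub_proj (hxP.trans hPP.symm), hxx, hPP]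
    push_cast
    ring
  have hPA : classInner P A₀ = 0 := by
    rw [hP, classInner_sub_left, classInner_zsmul_left, classInner_sum_left, Finset.sum_eq_zero (fun φ hφ => by
      rw [classInner_comm, hA₀τ φ hφ, map_zero]), classInner_comm A₀, hA₀τ ζ hζ, map_zero, mul_zero, sub_zero]
  have hXA : classInner X A₀ = classInner A₀ A₀ := by
    show classInner (x - P) A₀ = _
    rw [classInner_sub_left, hPA, sub_zero, hxA₀, hA₀A₀]
  have hsub := inner_self_sub_proj hXA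
  rw [hXX, hA₀A₀] at hsub
  have hre := inner_self_re_nonneg (X - A₀)
  rw [hsub] at hre
  simp only [Complex.sub_re, Complex.natCast_re, sub_nonneg, Nat.cast_le] at hre
  obtain rfl : m = n χ := le_antisymm hre hnm
  rw [sub_self, H57.inner_self_eq_zero, sub_eq_zero] at hsub
  rw [hsub]
  exact ⟨hA₀A₀, hA₀τ, hA₀T, hA₀orth⟩

open scoped Classical in
/-- Coherence from a set of irreducible members of least degree, allowing equality in the extension criterion. -/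
theorem coherent_of_small_members (hS : IsCoherenceSystem S τ R) (d n : (L → ℂ) → ℕ)
    (hd : ∀ φ ∈ S, φ 1 = (d φ : ℂ)) (hn : ∀ φ ∈ S, classInner φ φ = (n φ : ℂ))
    (S₁ : Finset (L → ℂ)) (hS₁ : ↑S₁ ⊆ S) (hS₁c : ∀ φ ∈ S₁, conjFun φ ∈ S₁) (hne : S₁.Nonempty) (D : ℕ)
    (h₁ : ∀ φ ∈ S₁, d φ = D ∧ n φ = 1)
    (hdeg : ∀ χ ∈ S, ∃ b, d χ = b * D ∧ 2 * b ≤ S₁.card)
    (hA : ∀ b, 2 ≤ b → S₁.card = 2 * b → (∀ χ ∈ S, χ ∉ S₁ → d χ = b * D) →
      ∃ ζ ∈ S₁, ∃ A : G → ℂ, IsGeneralizedCharacter G A ∧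
        (∀ φ ∈ S₁, φ ≠ ζ → classInner A (τ (ζ - φ)) = -1) ∧
        (∀ χ ∈ S, χ ∉ S₁ → classInner A (τ (χ - (b : ℤ) • ζ)) = (b : ℂ)) ∧
        (classInner A A).re < 1 + ∑ χ ∈ (sys_finite hS).toFinset \ S₁, (1 : ℝ) / n χ) :
    IsCoherent S {1}ᶜ τ := by
  obtain ⟨ζ₀, hζ₀⟩ := hne
  have hpos : ∀ φ ∈ S, 0 < n φ ∧ 0 < d φ := fun φ hφ => by
    obtain ⟨m, hm, e⟩ := sys_norm hS hφ
    obtain ⟨k, hk, e'⟩ := sys_degree hS hφ
    have : m = n φ := by exact_mod_cast (e.symm.trans (hn φ hφ))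
    have : k = d φ := by exact_mod_cast (e'.symm.trans (hd φ hφ))
    omega
  have hD : 0 < D := (h₁ ζ₀ hζ₀).1 ▸ (hpos ζ₀ (hS₁ hζ₀)).2
  have hS₁sys : IsCoherenceSystem (↑S₁ : Set (L → ℂ)) τ R :=
    { nonempty := ⟨ζ₀, Finset.mem_coe.2 hζ₀⟩
      isCharacter := fun χ h => hS.isCharacter χ (hS₁ h)
      conj_mem := hS₁c
      conj_ne := fun χ h => hS.conj_ne χ (hS₁ h)
      isometry := ⟨fun a ha b hb => hS.isometry.1 a (zspanOn_mono hS₁ ha) b (zspanOn_mono hS₁ hb),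
        fun a ha => hS.isometry.2.1 a (zspanOn_mono hS₁ ha),
        fun a ha b hb => hS.isometry.2.2.1 a (zspanOn_mono hS₁ ha) b (zspanOn_mono hS₁ hb),
        fun a ha => hS.isometry.2.2.2 a (zspanOn_mono hS₁ ha)⟩
      map_one := fun a ha => hS.map_one a (zspanOn_mono hS₁ ha)
      orthogonal := fun χ h φ h' => hS.orthogonal χ (hS₁ h) φ (hS₁ h')
      orthonormal := fun χ h => hS.orthonormal χ (hS₁ h)
      virtual := fun χ h => hS.virtual χ (hS₁ h)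
      sum_eq := fun χ h => hS.sum_eq χ (hS₁ h)
      disjoint := fun χ h φ h' => hS.disjoint χ (hS₁ h) φ (hS₁ h') }
  have hcoh₁ : IsCoherent (↑S₁ : Set (L → ℂ)) {1}ᶜ τ :=
    coherent_constant_degree hS₁sys fun φ hφ ψ hψ => by
      rw [hd φ (hS₁ hφ), hd ψ (hS₁ hψ), (h₁ φ hφ).1, (h₁ ψ hψ).1]
  have hsum₁ : ∑ φ ∈ S₁, ((d φ : ℝ) ^ 2 / (n φ : ℝ)) = S₁.card * (D : ℝ) ^ 2 := by
    rw [Finset.sum_congr rfl (fun φ hφ => by rw [(h₁ φ hφ).1, (h₁ φ hφ).2, Nat.cast_one, div_one] :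
      ∀ φ ∈ S₁, (d φ : ℝ) ^ 2 / (n φ : ℝ) = (D : ℝ) ^ 2), Finset.sum_const, nsmul_eq_mul]
  set SF := (sys_finite hS).toFinset with hSF
  have hSFmem : ∀ {χ : L → ℂ}, χ ∈ SF ↔ χ ∈ S := fun {χ} => Set.Finite.mem_toFinset _
  -- once a further pair has joined, every inequality is strict
  have hfinish : ∀ χ ∈ S, χ ∉ S₁ → IsCoherent (↑S₁ ∪ {χ, conjFun χ} : Set (L → ℂ)) {1}ᶜ τ →
      IsCoherent S {1}ᶜ τ := by
    intro χ hχ hχ₁ hcoh
    set S₂ := S₁ ∪ {χ, conjFun χ} with hS₂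
    have hc : (↑S₂ : Set (L → ℂ)) = ↑S₁ ∪ {χ, conjFun χ} := by simp [hS₂]
    have h2S : ↑S₂ ⊆ S := by
      rw [hc]
      exact Set.union_subset hS₁ (Set.insert_subset hχ (Set.singleton_subset_iff.2 (hS.conj_mem χ hχ)))
    have h2c : ∀ φ ∈ S₂, conjFun φ ∈ S₂ := by
      intro φ hφ
      simp only [hS₂, Finset.mem_union, Finset.mem_insert, Finset.mem_singleton] at hφ ⊢
      rcases hφ with h' | rfl | rfl
      · exact Or.inl (hS₁c φ h')
      · exact Or.inr (Or.inr rfl)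
      · exact Or.inr (Or.inl (conjFun_conjFun χ))
    obtain ⟨S₃, -, -, h3, -, h3coh⟩ := coherent_grow hS d n hd hn S₂ h2S h2c (hc ▸ hcoh) ζ₀
      (Finset.mem_union_left _ hζ₀) SF (fun φ hφ => hSFmem.1 hφ) fun ψ hψ => by
        obtain ⟨b, hb, hb2⟩ := hdeg ψ (hSFmem.1 hψ)
        refine ⟨by rw [hb, (h₁ ζ₀ hζ₀).1]; exact dvd_mul_left _ _, ?_⟩
        have h4 : (S₁.card : ℝ) * (D : ℝ) ^ 2 + (d χ : ℝ) ^ 2 / n χ ≤
            ∑ φ ∈ S₂, ((d φ : ℝ) ^ 2 / (n φ : ℝ)) := by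
          rw [← hsum₁, add_comm, ← Finset.sum_insert (f := fun φ => (d φ : ℝ) ^ 2 / (n φ : ℝ)) hχ₁]
          refine Finset.sum_le_sum_of_subset_of_nonneg ?_ fun φ _ _ => by positivity
          exact Finset.insert_subset (by simp [hS₂]) Finset.subset_union_left
        have h5 : (0 : ℝ) < (d χ : ℝ) ^ 2 / n χ :=
          div_pos (pow_pos (Nat.cast_pos.2 (hpos χ hχ).2) 2) (Nat.cast_pos.2 (hpos χ hχ).1)
        have h6 : (2 * b : ℝ) ≤ S₁.card := by exact_mod_cast hb2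
        rw [hb, (h₁ ζ₀ hζ₀).1]
        push_cast
        nlinarith [mul_le_mul_of_nonneg_right h6 (sq_nonneg (D : ℝ))]
    exact coherent_subset (fun φ hφ => Finset.mem_coe.2 (h3 (hSFmem.2 hφ))) h3coh
      ⟨_, sys_diff_mem hS hχ, sys_diff_ne_zero hS hχ⟩
  by_cases hconst : ∀ χ ∈ S, d χ = D
  · exact coherent_constant_degree hS fun φ hφ ψ hψ => by
      rw [hd φ hφ, hd ψ hψ, hconst φ hφ, hconst ψ hψ]
  simp only [not_forall] at hconst
  obtain ⟨χ₀, hχ₀, hχ₀d⟩ := hconst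
  have hnot : ∀ {χ : L → ℂ}, χ ∈ S → χ ∉ S₁ → conjFun χ ∉ S₁ := fun hχ h h' =>
    h (by have := hS₁c _ h'; rwa [conjFun_conjFun] at this)
  by_cases hstrict : ∃ χ ∈ S, χ ∉ S₁ ∧ ∃ b, d χ = b * D ∧ 2 * b < S₁.card
  · obtain ⟨χ, hχ, hχ₁, b, hb, hlt⟩ := hstrict
    refine hfinish χ hχ hχ₁ (coherent_adjoin_pair hS d n hd hn S₁ hS₁ hS₁c hcoh₁ χ hχ hχ₁ (hnot hχ hχ₁) ζ₀ hζ₀
      (by rw [hb, (h₁ ζ₀ hζ₀).1]; exact dvd_mul_left _ _) ?_)
    rw [hsum₁, hb, (h₁ ζ₀ hζ₀).1]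
    have h6 : (2 * b : ℝ) < S₁.card := by exact_mod_cast hlt
    push_cast
    nlinarith [mul_lt_mul_of_pos_right h6 (pow_pos (Nat.cast_pos.2 hD : (0 : ℝ) < D) 2)]
  have htie : ∀ χ ∈ S, χ ∉ S₁ → ∃ b, d χ = b * D ∧ 2 * b = S₁.card := fun χ hχ hχ₁ => by
    obtain ⟨b, hb, hle⟩ := hdeg χ hχ
    refine ⟨b, hb, le_antisymm hle ?_⟩
    by_contra h
    exact hstrict ⟨χ, hχ, hχ₁, b, hb, by omega⟩
  have hχ₀₁ : χ₀ ∉ S₁ := fun h => hχ₀d (h₁ χ₀ h).1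
  obtain ⟨b, hb, hN⟩ := htie χ₀ hχ₀ hχ₀₁
  have hb2 : 2 ≤ b := by
    rcases b with _ | _ | b
    · have := (hpos χ₀ hχ₀).2; simp only [zero_mul] at hb; omega
    · exact absurd (by simpa using hb) hχ₀d
    · omega
  have hall : ∀ χ ∈ S, χ ∉ S₁ → d χ = b * D := fun χ hχ hχ₁ => by
    obtain ⟨b', hb', hN'⟩ := htie χ hχ hχ₁
    rw [hb', show b' = b by omega]
  obtain ⟨ζ, hζ, A, hAgen, hA1, hA2, hAA⟩ := hA b hb2 hN.symm hall
  obtain ⟨hne₁, τ₁, hτ₁, hag⟩ := hcoh₁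
  by_cases hzero : ∃ χ ∈ S, χ ∉ S₁ ∧ classInner (τ (χ - (b : ℤ) • ζ)) (τ₁ ζ) = -((b : ℂ) * n ζ)
  · obtain ⟨χ, hχ, hχ₁, h0⟩ := hzero
    exact hfinish χ hχ hχ₁ (adjoin_pair_of_coef hS d n hd hn S₁ hS₁ hS₁c hne₁ hτ₁ hag χ hχ hχ₁ (hnot hχ hχ₁)
      ζ hζ b (by rw [hall χ hχ hχ₁, (h₁ ζ hζ).1]) h0)
  exfalso
  set P := ∑ φ ∈ S₁, τ₁ φ - (b : ℤ) • τ₁ ζ with hP
  set X : (L → ℂ) → G → ℂ := fun χ => τ (χ - (b : ℤ) • ζ) - P with hX
  have hXfacts : ∀ χ ∈ S, χ ∉ S₁ → classInner (X χ) (X χ) = n χ ∧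
      (∀ φ ∈ S₁, classInner (X χ) (τ₁ φ) = 0) ∧ classInner (X χ) (τ (χ - conjFun χ)) = n χ ∧
      ∀ y : G → ℂ, (∀ α ∈ R χ, classInner y α = 0) → classInner (X χ) y = 0 := fun χ hχ hχ₁ =>
    (tie_dichotomy hS d n hd hn S₁ hS₁ hS₁c D h₁ hτ₁ hag χ hχ hχ₁ (hnot hχ hχ₁) ζ hζ b (hall χ hχ hχ₁)
      hN.symm).resolve_left fun h => hzero ⟨χ, hχ, hχ₁, h⟩
  have hXorth : ∀ χ ∈ S, χ ∉ S₁ → ∀ ψ ∈ S, ψ ∉ S₁ → χ ≠ ψ → classInner (X χ) (X ψ) = 0 := by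
    intro χ hχ hχ₁ ψ hψ hψ₁ hne'
    by_cases hc : ψ = conjFun χ
    · subst hc
      obtain ⟨hXX, -, hXT, -⟩ := hXfacts χ hχ hχ₁
      have hmz : (χ - (b : ℤ) • ζ) ∈ zspanOn S {1}ᶜ :=
        mem_degZero.2 ⟨zspan_sub (zspan_subset_of_mem hχ) (zspan_zsmul (zspan_subset_of_mem (hS₁ hζ)) _),
          by simp [hd χ hχ, hd ζ (hS₁ hζ), hall χ hχ hχ₁, (h₁ ζ hζ).1]⟩
      have e : X (conjFun χ) = X χ - τ (χ - conjFun χ) := by
        simp only [hX]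
        rw [show conjFun χ - (b : ℤ) • ζ = (χ - (b : ℤ) • ζ) - (χ - conjFun χ) by abel,
          iso_degZero_sub hS.isometry hmz (sys_diff_mem hS hχ)]
        abel
      rw [e, classInner_sub_right, hXX, hXT, sub_self]
    · refine (hXfacts χ hχ hχ₁).2.2.2 _ fun α hα => ?_
      refine (hXfacts ψ hψ hψ₁).2.2.2 α fun β hβ => ?_
      rw [classInner_comm, sys_disjoint hS hχ hψ (Ne.symm hne') hc hβ hα, map_zero]
  obtain ⟨k, hk⟩ := gen_inner_int hAgen (hτ₁.2.2.2 ζ (zspan_subset_of_mem (Finset.mem_coe.2 hζ)))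
  set Y : ℤ := k + 1 with hY
  have hA₁ : ∀ φ ∈ S₁, classInner A (τ₁ φ) = (Y : ℂ) - if φ = ζ then 1 else 0 := by
    intro φ hφ
    split_ifs with e
    · subst e; rw [hk, hY]; push_cast; ring
    · have hmz : ζ - φ ∈ zspanOn (↑S₁ : Set (L → ℂ)) {1}ᶜ :=
        mem_degZero.2 ⟨zspan_sub (zspan_subset_of_mem (Finset.mem_coe.2 hζ))
          (zspan_subset_of_mem (Finset.mem_coe.2 hφ)),
          by simp [hd ζ (hS₁ hζ), hd φ (hS₁ hφ), (h₁ ζ hζ).1, (h₁ φ hφ).1]⟩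
      have h := hA1 φ hφ e
      rw [← hag _ hmz, iso_zspan_sub hτ₁ (zspan_subset_of_mem (Finset.mem_coe.2 hζ))
        (zspan_subset_of_mem (Finset.mem_coe.2 hφ)), classInner_sub_right, hk] at h
      rw [hY]
      push_cast
      linear_combination -h
  have hAX : ∀ χ ∈ S, χ ∉ S₁ → classInner A (X χ) = 1 - (b : ℂ) * Y := by
    intro χ hχ hχ₁
    simp only [hX, hP, classInner_sub_right, classInner_sum_right, classInner_zsmul_right]
    rw [hA2 χ hχ hχ₁, Finset.sum_congr rfl hA₁, hA₁ ζ hζ, if_pos rfl, Finset.sum_sub_distrib,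
      Finset.sum_ite_eq' S₁ ζ, if_pos hζ, Finset.sum_const, ← hN]
    push_cast
    ring
  set v : (L → ℂ) → G → ℂ := fun φ => if φ ∈ S₁ then τ₁ φ else X φ with hv
  set w : (L → ℂ) → ℝ := fun φ => if φ ∈ S₁ then (Y : ℝ) - (if φ = ζ then 1 else 0) else 1 - (b : ℝ) * Y
    with hw
  have hbessel := bessel SF v (fun φ => (n φ : ℝ))
    (fun φ hφ => by exact_mod_cast (hpos φ (hSFmem.1 hφ)).1)
    (fun φ hφ => by
      by_cases h : φ ∈ S₁
      · simp only [hv, if_pos h, gram_insert S₁ τ₁ hτ₁ h h, hn φ (hS₁ h), Complex.ofReal_natCast]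
      · simp only [hv, if_neg h, (hXfacts φ (hSFmem.1 hφ) h).1, Complex.ofReal_natCast])
    (fun φ hφ ψ hψ hne' => by
      by_cases h : φ ∈ S₁ <;> by_cases h' : ψ ∈ S₁
      · simp only [hv, if_pos h, if_pos h']
        rw [gram_insert S₁ τ₁ hτ₁ h h', hS.orthogonal φ (hS₁ h) ψ (hS₁ h') hne']
      · simp only [hv, if_pos h, if_neg h']
        rw [classInner_comm, (hXfacts ψ (hSFmem.1 hψ) h').2.1 φ h, map_zero]
      · simp only [hv, if_neg h, if_pos h', (hXfacts φ (hSFmem.1 hφ) h).2.1 ψ h']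
      · simp only [hv, if_neg h, if_neg h']
        exact hXorth φ (hSFmem.1 hφ) h ψ (hSFmem.1 hψ) h' hne')
    A w (fun φ hφ => by
      by_cases h : φ ∈ S₁
      · simp only [hv, hw, if_pos h, hA₁ φ h]
        split_ifs <;> push_cast <;> rfl
      · simp only [hv, hw, if_neg h, hAX φ (hSFmem.1 hφ) h]
        push_cast; rfl)
  have hsub : S₁ ⊆ SF := fun φ hφ => hSFmem.2 (hS₁ hφ)
  rw [← Finset.sum_sdiff hsub,
    Finset.sum_congr rfl (fun φ hφ => by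
      rw [Finset.mem_sdiff] at hφ
      simp only [hw, if_neg hφ.2]
      rw [← mul_one_div] : ∀ φ ∈ SF \ S₁, w φ ^ 2 / (n φ : ℝ) = (1 - (b : ℝ) * Y) ^ 2 * (1 / (n φ : ℝ))),
    ← Finset.mul_sum, ← Finset.add_sum_erase _ _ hζ,
    Finset.sum_congr rfl (fun φ hφ => by
      simp only [hw, if_pos (Finset.mem_of_mem_erase hφ), if_neg (Finset.ne_of_mem_erase hφ), sub_zero,
        (h₁ φ (Finset.mem_of_mem_erase hφ)).2, Nat.cast_one, div_one] :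
      ∀ φ ∈ S₁.erase ζ, w φ ^ 2 / (n φ : ℝ) = (Y : ℝ) ^ 2),
    Finset.sum_const, Finset.card_erase_of_mem hζ, ← hN, nsmul_eq_mul,
    Nat.cast_sub (by omega), (h₁ ζ hζ).2] at hbessel
  simp only [hw, if_pos hζ, if_true, Nat.cast_one, div_one, Nat.cast_mul, Nat.cast_ofNat] at hbessel
  set K := ∑ χ ∈ SF \ S₁, (1 : ℝ) / n χ
  have hK : 0 ≤ K := Finset.sum_nonneg fun _ _ => by positivity
  have hb2' : (2 : ℝ) ≤ b := by exact_mod_cast hb2
  rcases eq_or_ne Y 0 with hY0 | hY0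
  · rw [hY0] at hbessel
    simp only [Int.cast_zero] at hbessel
    nlinarith
  · have hY1 : (1 : ℝ) ≤ (Y : ℝ) ^ 2 := by
      have : (1 : ℤ) ≤ Y ^ 2 := by have := sq_pos_of_ne_zero hY0; omega
      exact_mod_cast this
    have hbY : (1 : ℝ) ≤ (1 - (b : ℝ) * Y) ^ 2 := by
      have h0 : (1 - (b : ℤ) * Y) ≠ 0 := fun e => by
        have h1 : (b : ℤ) * Y = 1 := by omega
        rcases Int.eq_one_or_neg_one_of_mul_eq_one h1 with h2 | h2 <;> omega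
      have : (1 : ℤ) ≤ (1 - (b : ℤ) * Y) ^ 2 := by have := sq_pos_of_ne_zero h0; omega
      exact_mod_cast this
    nlinarith [mul_le_mul_of_nonneg_right hbY hK, mul_le_mul_of_nonneg_left hY1 (by linarith : (0 : ℝ) ≤ 2 * b - 1)]

end Cfsg.Agent.H38.PF9
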