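import Cfsg.Agent.H38.PF9.Support

/-!
# The permutation character on the cosets of `H C_U(H / N₁)`

In the split case: `α = Ind_{H C₁} 1 - ζ` is supported in `centSupp K H`, and
`‖Ind_{H C₁} 1‖² ≤ a + (q - 1) a ^ (q - 1) / u`.
-/

set_option autoImplicit false

namespace Cfsg.Agent.H38.PF9

open Cfsg
open scoped commutatorElement

variable {L : Type*} [Group L] {K H U W₁ W₂ H₀ N₁ : Subgroup L} {p : ℕ}

/-- The induced principal character of `H C_U(H / N₁)`. -/
noncomputable def permFun [Fintype L] (H U N₁ : Subgroup L) : L → ℂ :=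
  indFun (H ⊔ centMod H U N₁) fun _ => 1

theorem permFun_isCharacter [Fintype L] (H U N₁ : Subgroup L) : IsCharacter L (permFun H U N₁) := by
  haveI := Fintype.ofFinite (H ⊔ centMod H U N₁ : Subgroup L)
  refine H25.isCharacter_indFun _ ?_
  exact H26.isCharacter_of_irr (H26.oneIrr (H ⊔ centMod H U N₁ : Subgroup L)).2

namespace Split

variable (S : Split K H U W₁ W₂ H₀ p N₁)
include S

theorem sup_cent_le : H ⊔ centMod H U N₁ ≤ K :=
  sup_le S.facts.chief.H_le (Chief.centMod_le.trans S.facts.chief.U_le)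

theorem sup_cent_conj [Finite L] {k t : L} (hk : k ∈ K) (ht : t ∈ H ⊔ centMod H U N₁) :
    k * t * k⁻¹ ∈ H ⊔ centMod H U N₁ := by
  have c := S.facts.chief
  haveI := c.H_normal
  have h := sup_le_sup_left S.centMod_le_cent H (c.comm_K hk (S.sup_cent_le ht))
  have := mul_mem h ht
  simpa [mul_assoc] using this

theorem relIndex_sup_cent [Finite L] {D : Subgroup L} (hD : D ≤ U) :
    Nat.card (H ⊔ D : Subgroup L) * D.relIndex U = Nat.card K := by
  have c := S.facts.chief
  have h := c.relIndex_sup (N := H) le_rfl hD (fun d _ n hn => c.conj_mem_H d hn)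
  rw [Subgroup.relIndex_self, one_mul] at h
  rw [← h, ← Subgroup.relIndex_bot_left (H := (H ⊔ D : Subgroup L)), ← Subgroup.relIndex_bot_left (H := K)]
  exact Subgroup.relIndex_mul_relIndex ⊥ _ K bot_le (sup_le c.H_le (hD.trans c.U_le))

theorem le_pow [Finite L] : (centMod H U H₀).relIndex U ≤ (centMod H U N₁).relIndex U ^ (Nat.card W₁ - 1) := by
  have c := S.facts.chief
  obtain ⟨x, hx, hx1⟩ := c.exists_ne_one
  have h3 : 3 ≤ Nat.card W₁ := by
    have h2 := c.prime.two_le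
    rcases Nat.lt_or_ge 2 (Nat.card W₁) with h | h
    · exact h
    · exact absurd (c.odd.of_dvd_nat (Subgroup.card_subgroup_dvd_card W₁))
        (by rw [show Nat.card W₁ = 2 by omega]; decide)
  refine (S.relIndex_le hx hx1).trans ?_
  rw [show Nat.card W₁ - 1 = 2 + (Nat.card W₁ - 3) by omega, pow_add, pow_two]
  exact Nat.mul_le_mul_right _ (Subgroup.relIndex_inf_le.trans
    (Nat.mul_le_mul_left _ (S.relIndex_conj hx).le))

theorem mem_centSupp_of_mem [Finite L] {t : L} (ht : t ∈ H ⊔ centMod H U N₁) (ht1 : t ≠ 1) :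
    t ∈ centSupp K H := by
  have c := S.facts.chief
  haveI := c.H_normal
  by_contra hne
  have hfix : ∀ h ∈ H, t * h = h * t → h = 1 := fun h hh hc => by
    by_contra h1; exact hne ⟨S.sup_cent_le ht, ht1, h, hh, h1, hc⟩
  refine S.ne_H (le_antisymm S.le fun y hy => ?_)
  obtain ⟨k, hk, rfl⟩ := exists_comm_eq hfix hy
  obtain ⟨h, hh, z, hz, rfl⟩ := Subgroup.mem_sup_of_normal_left.1 ht
  have e1 : k * h * k⁻¹ * h⁻¹ ∈ N₁ := S.le₀ (c.comm_mem hk hh)
  have e2 : z * k * z⁻¹ * k⁻¹ ∈ N₁ := (S.mem_cent_iff.1 hz).2 k hk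
  have e3 : h * (z * k * z⁻¹ * k⁻¹)⁻¹ * h⁻¹ ∈ N₁ := S.inv_H h hh _ (N₁.inv_mem e2)
  have e := mul_mem e1 e3
  convert e using 1
  group

theorem permFun_supp [Fintype L] {x : L} (hx1 : x ≠ 1) (hx : x ∉ centSupp K H) : permFun H U N₁ x = 0 := by
  have c := S.facts.chief
  haveI := c.K_normal
  haveI := c.H_normal
  refine H25.indFun_eq_zero _ _ fun y hy => hx ?_
  have h := centSupp_conj y (S.mem_centSupp_of_mem hy fun e => hx1 ?_)
  · simpa [mul_assoc] using h
  · calc x = y * (y⁻¹ * x * y) * y⁻¹ := by group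
      _ = 1 := by rw [e]; group

theorem permFun_one [Fintype L] :
    permFun H U N₁ 1 = ((Nat.card W₁ * (centMod H U N₁).relIndex U : ℕ) : ℂ) := by
  have c := S.facts.chief
  haveI := c.K_normal
  rw [permFun, H25.indFun_one, mul_one]
  congr 1
  rw [← Subgroup.relIndex_mul_index S.sup_cent_le, c.typeP.index_eq]
  have h := S.relIndex_sup_cent (D := centMod H U N₁) Chief.centMod_le
  have h2 := Subgroup.relIndex_mul_relIndex ⊥ _ K bot_le S.sup_cent_le
  rw [Subgroup.relIndex_bot_left, Subgroup.relIndex_bot_left, ← h] at h2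
  rw [Nat.eq_of_mul_eq_mul_left Nat.card_pos h2, mul_comm]

theorem permFun_orth [Fintype L] {A : Subgroup L} {φ : L → ℂ} (hφ : φ ∈ indSet K H A) :
    classInner (permFun H U N₁) φ = 0 := by
  classical
  have c := S.facts.chief
  haveI := c.K_normal
  haveI := c.H_normal
  haveI := Fintype.ofFinite H
  set T := H ⊔ centMod H U N₁ with hT
  haveI := Fintype.ofFinite T
  haveI := Fintype.ofFinite K
  have hcf : IsClassFunction L φ := H26.isClassFunction_of_isCharacter (c.indSet_isCharacter hφ)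
  rw [permFun, H25.classInner_indFun_left _ _ _ hcf]
  have hsum : ∑ t : T, φ t = 0 := by
    have e1 : ∀ a : H, ∑ t : T, φ ((a : L) * t) = ∑ t : T, φ t := fun a =>
      Fintype.sum_equiv (Equiv.mulLeft (⟨a, Subgroup.mem_sup_left a.2⟩ : T)) _ _ fun t => rfl
    have e2 : ∑ a : H, ∑ t : T, φ ((a : L) * t) = 0 := by
      rw [Finset.sum_comm]
      exact Finset.sum_eq_zero fun t _ => indSet_sum_coset c.H_le hφ (S.sup_cent_le t.2)
    rw [Finset.sum_congr rfl (fun a _ => e1 a), Finset.sum_const, Finset.card_univ, nsmul_eq_mul,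
      mul_eq_zero] at e2
    exact e2.resolve_left (Nat.cast_ne_zero.2 Fintype.card_ne_zero)
  simp only [classInner, one_mul]
  rw [← map_sum, hsum, map_zero, mul_zero]

/-- `‖Ind 1‖² ≤ a + (q - 1) a ^ (q - 1) / u`. -/
theorem permFun_norm_le [Fintype L] :
    (classInner (permFun H U N₁) (permFun H U N₁)).re ≤ ((centMod H U N₁).relIndex U : ℝ) +
      ((Nat.card W₁ : ℝ) - 1) * (((centMod H U N₁).relIndex U : ℝ) ^ (Nat.card W₁ - 1) /
        ((centMod H U H₀).relIndex U : ℝ)) := by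
  classical
  have c := S.facts.chief
  haveI := c.H_normal
  set C₁ := centMod H U N₁ with hC₁
  set a := C₁.relIndex U with ha
  set u := (centMod H U H₀).relIndex U with hu
  set T := H ⊔ C₁ with hT
  haveI := Fintype.ofFinite T
  haveI := Fintype.ofFinite W₁
  haveI := Fintype.ofFinite K
  have hu0 : 0 < u := Nat.pos_of_dvd_of_pos (Subgroup.relIndex_dvd_card _ _) Nat.card_pos
  have hTK : Nat.card T * a = Nat.card K := S.relIndex_sup_cent Chief.centMod_le
  -- the intersection numbers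
  let f : L → ℕ := fun x => (Finset.univ.filter fun t : T => x⁻¹ * t * x ∈ T).card
  have hval : ∀ g : L, permFun H U N₁ g =
      (Nat.card T : ℂ)⁻¹ * ∑ x : L, if x⁻¹ * g * x ∈ T then (1 : ℂ) else 0 := by
    intro g
    rw [permFun, H25.indFun_apply]
    congr 1
    refine Finset.sum_congr rfl fun x _ => ?_
    split_ifs with h
    · rw [H25.extendByZero_of_mem _ _ h]
    · rw [H25.extendByZero_of_notMem _ _ h]
  have hnorm : classInner (permFun H U N₁) (permFun H U N₁) =
      (Nat.card T : ℂ)⁻¹ * ((Nat.card T : ℂ)⁻¹ * ((∑ x : L, f x : ℕ) : ℂ)) := by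
    conv_lhs => arg 1; rw [permFun]
    rw [H25.classInner_indFun_left _ _ _
      (H26.isClassFunction_of_isCharacter (permFun_isCharacter H U N₁))]
    simp only [classInner, one_mul, hval, map_mul, map_inv₀, Complex.conj_natCast, map_sum,
      apply_ite (starRingEnd ℂ), map_one, map_zero]
    congr 1
    rw [← Finset.mul_sum, Finset.sum_comm]
    congr 1
    push_cast
    refine Finset.sum_congr rfl fun x _ => ?_
    rw [Finset.sum_boole]
  -- it only depends on the coset of `K`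
  have hfK : ∀ k ∈ K, ∀ w : L, f (k * w) = f w := by
    intro k hk w
    refine Finset.card_bij (fun t _ => (⟨k⁻¹ * t * k, by simpa using S.sup_cent_conj (K.inv_mem hk) t.2⟩ : T))
      (fun t ht => ?_) (fun t₁ _ t₂ _ e => ?_) (fun t ht => ?_)
    · simp only [Finset.mem_filter, Finset.mem_univ, true_and] at ht ⊢
      simpa [mul_assoc] using ht
    · exact Subtype.ext (by simpa using congrArg Subtype.val e)
    · refine ⟨⟨k * t * k⁻¹, S.sup_cent_conj hk t.2⟩, ?_, Subtype.ext (by simp [mul_assoc])⟩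
      simp only [Finset.mem_filter, Finset.mem_univ, true_and] at ht ⊢
      simpa [mul_assoc] using ht
  have hbij : Function.Bijective fun z : K × W₁ => (z.1 : L) * z.2 := by
    constructor
    · rintro ⟨k₁, w₁⟩ ⟨k₂, w₂⟩ e
      have e' : (k₁ : L) * w₁ = k₂ * w₂ := e
      have hm : (k₂ : L)⁻¹ * k₁ = w₂ * (w₁ : L)⁻¹ := by
        calc (k₂ : L)⁻¹ * k₁ = (k₂ : L)⁻¹ * ((k₁ : L) * w₁) * (w₁ : L)⁻¹ := by group
          _ = (k₂ : L)⁻¹ * ((k₂ : L) * w₂) * (w₁ : L)⁻¹ := by rw [e']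
          _ = w₂ * (w₁ : L)⁻¹ := by group
      have h1 : (k₂ : L)⁻¹ * k₁ ∈ K ⊓ W₁ :=
        ⟨K.mul_mem (K.inv_mem k₂.2) k₁.2, hm ▸ W₁.mul_mem w₂.2 (W₁.inv_mem w₁.2)⟩
      rw [c.inf_KW, Subgroup.mem_bot] at h1
      have hk : k₁ = k₂ := Subtype.ext (inv_mul_eq_one.1 h1).symm
      subst hk
      exact congrArg _ (Subtype.ext (mul_left_cancel e'))
    · intro g
      obtain ⟨k, hk, w, hw, rfl⟩ := c.decomp g
      exact ⟨(⟨k, hk⟩, ⟨w, hw⟩), rfl⟩
  have hsum : ∑ x : L, f x = Nat.card K * ∑ w : W₁, f w := by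
    rw [← (Equiv.ofBijective _ hbij).sum_comp, Fintype.sum_prod_type, Nat.card_eq_fintype_card,
      Finset.sum_congr rfl (fun k _ => Finset.sum_congr rfl fun w _ => hfK k.1 k.2 w.1)]
    simp
  -- bounds
  have hf1 : f 1 = Nat.card T := by
    simp [f, Nat.card_eq_fintype_card]
  have hfw : ∀ w ∈ W₁, w ≠ 1 → f w * u ≤ Nat.card K * a ^ (Nat.card W₁ - 3) := by
    intro w hw hw1
    set D := C₁ ⊓ C₁.comap (MulAut.conj w⁻¹).toMonoidHom with hD
    haveI := Fintype.ofFinite (H ⊔ D : Subgroup L)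
    have hle : f w ≤ Nat.card (H ⊔ D : Subgroup L) := by
      have hmem : ∀ t ∈ Finset.univ.filter (fun t : T => w⁻¹ * t * w ∈ T), (t : L) ∈ H ⊔ D := by
        intro t ht
        simp only [Finset.mem_filter, Finset.mem_univ, true_and] at ht
        obtain ⟨h, hh, z, hz, e⟩ := Subgroup.mem_sup_of_normal_left.1 t.2
        refine e ▸ Subgroup.mul_mem_sup hh ⟨hz, ?_⟩
        show w⁻¹ * z * w⁻¹⁻¹ ∈ C₁
        rw [inv_inv]
        have hzT : w⁻¹ * z * w ∈ T := by
          have h2 : w⁻¹ * h⁻¹ * w ∈ T := Subgroup.mem_sup_left (by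
            simpa using c.conj_mem_H w⁻¹ (H.inv_mem hh))
          have := T.mul_mem h2 ht
          rw [← e] at this
          simpa [mul_assoc] using this
        have hzU : w⁻¹ * z * w ∈ U := by simpa using c.W_norm w⁻¹ (inv_mem hw) z (Chief.centMod_le hz)
        obtain ⟨h', hh', z', hz', e'⟩ := Subgroup.mem_sup_of_normal_left.1 hzT
        have : h' ∈ H ⊓ U := ⟨hh', by
          rw [show h' = (w⁻¹ * z * w) * z'⁻¹ by rw [← e']; group]
          exact U.mul_mem hzU (U.inv_mem (Chief.centMod_le hz'))⟩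
        rw [c.inf_HU, Subgroup.mem_bot] at this
        rw [← e', this, one_mul]
        exact hz'
      calc f w ≤ (Finset.univ.image fun d : (H ⊔ D : Subgroup L) => (d : L)).card :=
            Finset.card_le_card_of_injOn (fun t => (t : L))
              (fun t ht => Finset.mem_image.2 ⟨⟨t, hmem t ht⟩, Finset.mem_univ _, rfl⟩)
              (Subtype.val_injective.injOn)
        _ ≤ _ := Finset.card_image_le.trans (by rw [Finset.card_univ, Nat.card_eq_fintype_card])
    have hk := S.relIndex_le (inv_mem hw) (inv_ne_one.2 hw1)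
    have hK := S.relIndex_sup_cent (D := D) (inf_le_left.trans Chief.centMod_le)
    calc f w * u ≤ Nat.card (H ⊔ D : Subgroup L) * (D.relIndex U * a ^ (Nat.card W₁ - 3)) :=
          Nat.mul_le_mul hle hk
      _ = Nat.card K * a ^ (Nat.card W₁ - 3) := by rw [← mul_assoc, hK]
  rw [hnorm, hsum, show (Nat.card T : ℂ)⁻¹ * ((Nat.card T : ℂ)⁻¹ * ((Nat.card K * ∑ w : W₁, f w : ℕ) : ℂ)) =
    ((((Nat.card T : ℝ))⁻¹ * ((Nat.card T : ℝ)⁻¹ * ((Nat.card K * ∑ w : W₁, f w : ℕ) : ℝ)) : ℝ) : ℂ) by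
      push_cast; ring, Complex.ofReal_re]
  push_cast
  have hT0 : (0 : ℝ) < Nat.card T := Nat.cast_pos.2 Nat.card_pos
  have hK0 : (0 : ℝ) < Nat.card K := Nat.cast_pos.2 Nat.card_pos
  have hu0' : (0 : ℝ) < u := Nat.cast_pos.2 hu0
  have hTK' : (Nat.card T : ℝ) * a = Nat.card K := by exact_mod_cast hTK
  rw [← Finset.add_sum_erase _ _ (Finset.mem_univ (1 : W₁)), Subgroup.coe_one, hf1]
  have hrest : ∑ w ∈ Finset.univ.erase (1 : W₁), (f w : ℝ) ≤
      ((Nat.card W₁ : ℝ) - 1) * ((Nat.card K : ℝ) * (a : ℝ) ^ (Nat.card W₁ - 3) / u) := by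
    refine (Finset.sum_le_card_nsmul _ _ ((Nat.card K : ℝ) * (a : ℝ) ^ (Nat.card W₁ - 3) / u) fun w hw => ?_).trans ?_
    · rw [le_div_iff₀ hu0']
      exact_mod_cast hfw w w.2 fun e => Finset.ne_of_mem_erase hw (Subtype.ext e)
    · rw [Finset.card_erase_of_mem (Finset.mem_univ _), Finset.card_univ, ← Nat.card_eq_fintype_card,
        nsmul_eq_mul, Nat.cast_sub (Nat.one_le_iff_ne_zero.2 Nat.card_pos.ne'), Nat.cast_one]
  have ha2 : (Nat.card K : ℝ) = (Nat.card T : ℝ) * a := hTK'.symm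
  calc (Nat.card T : ℝ)⁻¹ * ((Nat.card T : ℝ)⁻¹ * ((Nat.card K : ℝ) *
        ((Nat.card T : ℝ) + ∑ w ∈ Finset.univ.erase (1 : W₁), (f w : ℝ))))
      ≤ (Nat.card T : ℝ)⁻¹ * ((Nat.card T : ℝ)⁻¹ * ((Nat.card K : ℝ) * ((Nat.card T : ℝ) +
          ((Nat.card W₁ : ℝ) - 1) * ((Nat.card K : ℝ) * (a : ℝ) ^ (Nat.card W₁ - 3) / u)))) := by gcongr
    _ = _ := by
      have h3 : 3 ≤ Nat.card W₁ := by
        have h2 := c.prime.two_le
        rcases Nat.lt_or_ge 2 (Nat.card W₁) with h | h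
        · exact h
        · exact absurd (c.odd.of_dvd_nat (Subgroup.card_subgroup_dvd_card W₁))
            (by rw [show Nat.card W₁ = 2 by omega]; decide)
      rw [ha2, show Nat.card W₁ - 1 = (Nat.card W₁ - 3) + 2 by omega, pow_add]
      field_simp

end Split

end Cfsg.Agent.H38.PF9
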