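import Cfsg.Agent.H38.PF9.CoherenceCriterion
import Cfsg.Agent.H38.PF9.Perm

/-!
# Peterfalvi (9.11): `S(H₀ C')` is coherent

`τ` is any linear isometry on the virtual characters of `L` supported in `centSupp K H`; the corollary
`coherent_core_dade` takes the Dade map.
-/

set_option autoImplicit false

namespace Cfsg.Agent.H38.PF9

open Cfsg
open scoped commutatorElement

variable {L : Type*} [Group L] {K H U W₁ W₂ H₀ N₁ : Subgroup L} {p : ℕ}

/-- The virtual characters supported in `centSupp K H`. -/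
def suppChars [Fintype L] (K H : Subgroup L) : Set (L → ℂ) :=
  {φ | IsGeneralizedCharacter L φ ∧ ∀ x, x ∉ centSupp K H → φ x = 0}

/-- The numerical inequality at the end of the proof. -/
theorem pow_bound {a p u q : ℕ} (ha : 1 ≤ a) (hq : 3 ≤ q) (hp : 2 * a + 1 ≤ p) (hu : u ≤ a ^ (q - 1)) :
    q * u * a + q * (q - 1) * a ^ (q - 1) + q * u + 1 < p ^ q := by
  obtain ⟨m, rfl⟩ : ∃ m, q = m + 1 := ⟨q - 1, by omega⟩
  simp only [Nat.add_sub_cancel] at hu ⊢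
  have hbin : ∀ m, (2 * a) ^ (m + 1) + (m + 1) * (2 * a) ^ m + 1 ≤ (2 * a + 1) ^ (m + 1) + (if m = 0 then 1 else 0) := by
    intro m
    induction m with
    | zero => simp
    | succ m ih =>
      have h2 : 1 ≤ (2 * a) ^ m := Nat.one_le_pow _ _ (by omega)
      rw [if_neg (by omega), add_zero]
      rcases m with _ | m
      · ring_nf; omega
      · rw [if_neg (by omega), add_zero] at ih
        calc _ ≤ ((2 * a) ^ (m + 1 + 1) + (m + 1 + 1) * (2 * a) ^ (m + 1) + 1) * (2 * a + 1) := by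
              rw [pow_succ (2 * a) (m + 1 + 1), pow_succ (2 * a) (m + 1)]
              have h5 := Nat.zero_le ((m + 1 + 1) * (2 * a) ^ (m + 1))
              nlinarith [h2]
          _ ≤ _ := by rw [pow_succ (2 * a + 1) (m + 1 + 1)]; exact Nat.mul_le_mul_right _ ih
  have h := hbin m
  rw [if_neg (by omega), add_zero] at h
  have hp' : (2 * a + 1) ^ (m + 1) ≤ p ^ (m + 1) := Nat.pow_le_pow_left hp _
  have h2m : m + 1 + 1 ≤ 2 ^ (m + 1) := (Nat.lt_two_pow_self : m + 1 < 2 ^ (m + 1))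
  have h2m' : m + 1 ≤ 2 ^ m := (Nat.lt_two_pow_self : m < 2 ^ m)
  have hX : 0 < a ^ m := Nat.one_le_pow _ _ ha
  have hua : (m + 1) * u * a ≤ (m + 1) * (a ^ m * a) := by
    rw [mul_assoc]; exact Nat.mul_le_mul_left _ (Nat.mul_le_mul_right _ hu)
  have hq2 : (m + 1) * m * a ^ m + (m + 1) * u ≤ (m + 1) * (2 ^ m * a ^ m) := by
    calc _ ≤ (m + 1) * m * a ^ m + (m + 1) * a ^ m := Nat.add_le_add_left (Nat.mul_le_mul_left _ hu) _
      _ = (m + 1) * ((m + 1) * a ^ m) := by ring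
      _ ≤ _ := Nat.mul_le_mul_left _ (Nat.mul_le_mul_right _ h2m')
  have hlt : (m + 1) * (a ^ m * a) < 2 ^ (m + 1) * (a ^ m * a) :=
    Nat.mul_lt_mul_of_pos_right (by omega) (Nat.mul_pos hX ha)
  have e1 : (2 * a) ^ (m + 1) = 2 ^ (m + 1) * (a ^ m * a) := by rw [mul_pow, pow_succ a]
  rw [e1, mul_pow] at h
  omega

namespace Split

variable (S : Split K H U W₁ W₂ H₀ p N₁)
include S

theorem two_le_index [Finite L] : 2 * (centMod H U N₁).relIndex U + 1 ≤ p := by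
  have c := S.facts.chief
  set a := (centMod H U N₁).relIndex U
  have ha : Odd a := c.odd.of_dvd_nat ((Subgroup.relIndex_dvd_card _ _).trans (Subgroup.card_subgroup_dvd_card U))
  have h1 := S.facts.p_prime.two_le
  have h2 : 2 * a ∣ p - 1 := by
    refine (Nat.Coprime.mul_dvd_of_dvd_of_dvd (Nat.coprime_two_left.2 ha) ?_ S.index_dvd)
    rcases S.facts.p_prime.eq_two_or_odd with h | h
    · exact absurd h S.facts.p_ne_two
    · omega
  have := Nat.le_of_dvd (by omega) h2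
  omega

/-- Peterfalvi (9.11) in the split case. -/
theorem coherent_core [Fintype L] {G : Type*} [Group G] [Fintype G] {τ : (L → ℂ) → (G → ℂ)}
    {R : (L → ℂ) → Finset (G → ℂ)}
    (hS : IsCoherenceSystem (indSet K H (H₀ ⊔ ⁅centMod H U H₀, centMod H U H₀⁆)) τ R)
    (hτ : IsLinearIsometryOn (suppChars K H) τ) :
    IsCoherent (indSet K H (H₀ ⊔ ⁅centMod H U H₀, centMod H U H₀⁆)) {1}ᶜ τ := by
  classical
  have c := S.facts.chief
  haveI := c.K_normal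
  haveI := c.H_normal
  haveI := Fintype.ofFinite K
  haveI := c.sup_derived_normal
  haveI := c.sup_H_derived_normal
  set C := centMod H U H₀ with hC
  set a := (centMod H U N₁).relIndex U with ha
  set u := C.relIndex U with hu
  set q := Nat.card W₁ with hq
  set T := indSet K H (H₀ ⊔ ⁅C, C⁆) with hT
  have hdex : ∀ φ : L → ℂ, ∃ k : ℕ, φ ∈ T → φ 1 = k := fun φ => by
    by_cases h : φ ∈ T
    · obtain ⟨k, -, hk⟩ := H57.sys_degree hS h; exact ⟨k, fun _ => hk⟩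
    · exact ⟨0, fun h' => absurd h' h⟩
  have hnex : ∀ φ : L → ℂ, ∃ k : ℕ, φ ∈ T → classInner φ φ = k := fun φ => by
    by_cases h : φ ∈ T
    · obtain ⟨k, -, hk⟩ := H57.sys_norm hS h; exact ⟨k, fun _ => hk⟩
    · exact ⟨0, fun h' => absurd h' h⟩
  choose d hd using hdex
  choose n hn using hnex
  obtain ⟨S₁, hS₁U, hS₁irr, hS₁c, hcard, hS₁θ⟩ := S.exists_small_members
  have hCU : ⁅C, C⁆ ≤ ⁅U, U⁆ := Subgroup.commutator_mono Chief.centMod_le Chief.centMod_le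
  have hS₁T : ↑S₁ ⊆ T := hS₁U.trans (indSet_mono (sup_le_sup_left hCU _))
  have hUC : ⁅U, U⁆ ≤ C := Subgroup.commutator_le.2 fun x hx y hy => c.commutator_mem_centMod hx hy
  have hu0 : 0 < u := Nat.pos_of_dvd_of_pos (Subgroup.relIndex_dvd_card _ _) Nat.card_pos
  have hUU : u ≤ ⁅U, U⁆.relIndex U :=
    Nat.le_of_dvd (Nat.pos_of_dvd_of_pos (Subgroup.relIndex_dvd_card _ _) Nat.card_pos)
      (Subgroup.relIndex_dvd_of_le_left U hUC)
  have ha0 : 0 < a := Nat.pos_of_dvd_of_pos (Subgroup.relIndex_dvd_card _ _) Nat.card_pos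
  have hp := S.two_le_index
  have hNa : 2 * u ≤ S₁.card * a := by
    refine Nat.le_of_mul_le_mul_right ?_ ha0
    calc 2 * u * a = 2 * a * u := by ring
      _ ≤ (p - 1) * ⁅U, U⁆.relIndex U := Nat.mul_le_mul (by omega) hUU
      _ = S₁.card * a * a := by rw [← hcard, pow_two, mul_assoc]
  have hne : S₁.Nonempty := Finset.card_pos.1 (Nat.pos_of_ne_zero fun e => by rw [e, zero_mul] at hNa; omega)
  have h₁ : ∀ φ ∈ S₁, d φ = q * a ∧ n φ = 1 := fun φ hφ => by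
    have h1 := (hd φ (hS₁T hφ)).symm.trans (hS₁irr φ hφ).2
    have h2 := (hn φ (hS₁T hφ)).symm.trans (H57.irr_inner_self (hS₁irr φ hφ).1)
    exact ⟨by exact_mod_cast h1, by exact_mod_cast h2⟩
  have hdθ : ∀ φ ∈ T, ∃ k, d φ = q * k ∧ a ∣ k ∧ k ≤ u := by
    intro φ hφ
    have h0 := hd φ hφ
    obtain ⟨θ, hθ, rfl⟩ := hφ
    obtain ⟨k, -, hk⟩ := H57.irr_degree hθ.irr
    rw [c.indFun_one_eq, hk] at h0
    exact ⟨k, by exact_mod_cast h0.symm, S.dvd_degree (hθ.mono le_sup_left) hk, c.degree_le hθ hk⟩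
  refine coherent_of_small_members hS d n hd hn S₁ hS₁T hS₁c hne (q * a) h₁ (fun χ hχ => ?_) ?_
  · obtain ⟨k, hk, ⟨b, rfl⟩, hle⟩ := hdθ χ hχ
    refine ⟨b, by rw [hk]; ring, Nat.le_of_mul_le_mul_right ?_ ha0⟩
    calc 2 * b * a = 2 * (a * b) := by ring
      _ ≤ 2 * u := Nat.mul_le_mul_left _ hle
      _ ≤ _ := hNa
  intro b hb hN hall
  obtain ⟨ζ, hζ⟩ := hne
  have hq0 : 0 < q := c.prime.pos
  have hbu : ∀ χ ∈ T, χ ∉ S₁ → d χ = q * u := by
    intro χ hχ hχ₁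
    obtain ⟨k, hk, -, hle⟩ := hdθ χ hχ
    have h3 := hall χ hχ hχ₁
    rw [hk] at h3
    have hkb : k = b * a := Nat.eq_of_mul_eq_mul_left hq0 (h3.trans (by ring))
    rw [hN, mul_assoc] at hNa
    rw [hk, le_antisymm hle (by omega)]
  have hζT : ζ ∈ T := hS₁T hζ
  set α : L → ℂ := permFun H U N₁ - ζ with hα
  have hζgen : IsGeneralizedCharacter L ζ := H57.gen_of_irr (hS₁irr ζ hζ).1
  have hαmem : α ∈ suppChars K H := by
    refine ⟨H57.gen_sub (H57.gen_of_char (permFun_isCharacter H U N₁)) hζgen, fun x hx => ?_⟩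
    by_cases hx1 : x = 1
    · subst hx1
      rw [hα, Pi.sub_apply, S.permFun_one, (hS₁irr ζ hζ).2, sub_self]
    · rw [hα, Pi.sub_apply, S.permFun_supp hx1 hx, indSet_vanish c.H_le hζT hx1 hx, sub_self]
  have hψmem : ∀ ψ, ψ ∈ zspanOn T {1}ᶜ → ψ ∈ suppChars K H := fun ψ h => zspanOn_indSet_supp c.H_le h
  have hαinner : ∀ φ ∈ T, classInner α φ = -classInner ζ φ := fun φ hφ => by
    rw [hα, H26.classInner_sub_left, S.permFun_orth hφ, zero_sub]
  refine ⟨ζ, hζ, τ α, hτ.2.2.2 α hαmem, fun φ hφ hne' => ?_, fun χ hχ hχ₁ => ?_, ?_⟩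
  · have hm : ζ - φ ∈ zspanOn T {1}ᶜ :=
      H57.mem_degZero.2 ⟨H57.zspan_sub (H57.zspan_subset_of_mem hζT) (H57.zspan_subset_of_mem (hS₁T hφ)),
        by simp [(hS₁irr ζ hζ).2, (hS₁irr φ hφ).2]⟩
    rw [hτ.2.2.1 α hαmem _ (hψmem _ hm), H26.classInner_sub_right, hαinner ζ hζT, hαinner φ (hS₁T hφ),
      H57.irr_inner_self (hS₁irr ζ hζ).1, hS.orthogonal ζ hζT φ (hS₁T hφ) (Ne.symm hne')]
    ring
  · have hm : χ - (b : ℤ) • ζ ∈ zspanOn T {1}ᶜ :=
      H57.mem_degZero.2 ⟨H57.zspan_sub (H57.zspan_subset_of_mem hχ)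
        (H57.zspan_zsmul (H57.zspan_subset_of_mem hζT) _),
        by simp [hd χ hχ, hd ζ hζT, hall χ hχ hχ₁, (h₁ ζ hζ).1]⟩
    rw [hτ.2.2.1 α hαmem _ (hψmem _ hm), H26.classInner_sub_right, H57.classInner_zsmul_right, hαinner χ hχ,
      hαinner ζ hζT, H57.irr_inner_self (hS₁irr ζ hζ).1,
      hS.orthogonal ζ hζT χ hχ (fun e => hχ₁ (e ▸ hζ))]
    push_cast
    ring
  -- the norm of `α` against the sum of `1 / ‖χ‖²`
  have hαα : classInner (τ α) (τ α) = classInner (permFun H U N₁) (permFun H U N₁) + 1 := by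
    have h1 := S.permFun_orth hζT
    rw [hτ.2.2.1 α hαmem α hαmem, hα]
    rw [H26.classInner_sub_left, H26.classInner_sub_right, H26.classInner_sub_right, h1,
      H26.classInner_comm (permFun H U N₁) ζ, h1, H57.irr_inner_self (hS₁irr ζ hζ).1, map_zero]
    ring
  rw [hαα, Complex.add_re, Complex.one_re, add_comm, add_lt_add_iff_left]
  refine lt_of_le_of_lt S.permFun_norm_le ?_
  have hsum := c.sum_indSet (H₀ ⊔ ⁅C, C⁆) d n hd hn
  rw [c.sum_sq_sup c.H₀_le (c.derived_centMod_le.trans Chief.centMod_le)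
    (fun x _ y hy => c.conj_mem_H₀ x hy) inferInstance inferInstance, S.facts.relIndex_eq] at hsum
  set SF := (H57.sys_finite hS).toFinset with hSF
  have hSFmem : ∀ {φ : L → ℂ}, φ ∈ SF → φ ∈ T := fun {φ} h => (Set.Finite.mem_toFinset _).1 h
  have hsub : S₁ ⊆ SF := fun φ hφ => (Set.Finite.mem_toFinset _).2 (hS₁T hφ)
  rw [← Finset.sum_sdiff hsub,
    Finset.sum_congr rfl (fun φ hφ => by
      rw [Finset.mem_sdiff] at hφ
      rw [hbu φ (hSFmem hφ.1) hφ.2, Nat.cast_mul, ← mul_one_div] :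
      ∀ φ ∈ SF \ S₁, (d φ : ℂ) ^ 2 / (n φ : ℂ) = ((q : ℂ) * u) ^ 2 * (1 / (n φ : ℂ))),
    ← Finset.mul_sum,
    Finset.sum_congr rfl (fun φ hφ => by
      rw [(h₁ φ hφ).1, (h₁ φ hφ).2, Nat.cast_one, div_one, Nat.cast_mul] :
      ∀ φ ∈ S₁, (d φ : ℂ) ^ 2 / (n φ : ℂ) = ((q : ℂ) * a) ^ 2),
    Finset.sum_const, nsmul_eq_mul] at hsum
  set Kn := ∑ χ ∈ SF \ S₁, (1 : ℝ) / n χ with hKn
  have hKc : ∑ χ ∈ SF \ S₁, (1 : ℂ) / (n χ : ℂ) = (Kn : ℂ) := by rw [hKn]; push_cast; rfl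
  rw [hKc] at hsum
  have hreal : ((q : ℝ) * u) ^ 2 * Kn + (S₁.card : ℝ) * ((q : ℝ) * a) ^ 2 =
      q * (((p : ℝ) ^ q - 1) * (⁅C, C⁆.relIndex U : ℝ)) := by
    apply Complex.ofReal_injective
    push_cast
    convert hsum using 2
    simp [hq, hC]
  have hc' : (u : ℝ) ≤ (⁅C, C⁆.relIndex U : ℝ) := by
    exact_mod_cast Nat.le_of_dvd (Nat.pos_of_dvd_of_pos (Subgroup.relIndex_dvd_card _ _) Nat.card_pos)
      (Subgroup.relIndex_dvd_of_le_left U c.derived_centMod_le)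
  have hq3 : 3 ≤ q := by
    have h2 := c.prime.two_le
    rcases Nat.lt_or_ge 2 q with h | h
    · exact h
    · exact absurd (c.odd.of_dvd_nat (Subgroup.card_subgroup_dvd_card W₁))
        (by rw [show Nat.card W₁ = 2 by omega]; decide)
  have hNab : (S₁.card : ℝ) * a ≤ 2 * u := by
    -- all members outside `S₁` have degree `q u = b (q a)`
    by_cases hex : ∃ χ ∈ T, χ ∉ S₁
    · obtain ⟨χ, hχ, hχ₁⟩ := hex
      have h3 := (hbu χ hχ hχ₁).symm.trans (hall χ hχ hχ₁)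
      have : u = b * a := Nat.eq_of_mul_eq_mul_left hq0 (h3.trans (by ring))
      rw [hN, this]; push_cast; ring_nf; rfl
    · exfalso
      have h0 : Kn = 0 := by
        rw [hKn]
        refine Finset.sum_eq_zero fun φ hφ => ?_
        rw [Finset.mem_sdiff] at hφ
        exact absurd ⟨φ, hSFmem hφ.1, hφ.2⟩ hex
      obtain ⟨hcount, hθc⟩ := S.facts.invariant_chars
      obtain ⟨⟨θ₀, hθ₀, hinv⟩⟩ : Nonempty {θ : IrrCharacter K // Above K H H₀ θ.1 ∧
          ∀ y ∈ W₁, H56.twist K θ.1 y = θ.1} :=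
        (Nat.card_pos_iff.1 (by rw [hcount]; have := S.facts.p_prime.two_le; omega)).1
      have hmem : indFun K θ₀.1 ∈ T :=
        ⟨θ₀.1, (hθc θ₀.1 hθ₀ hinv).1.mono (sup_le_sup_left c.derived_centMod_le _), rfl⟩
      refine hex ⟨_, hmem, fun h => ?_⟩
      rcases c.indFun_norm θ₀.2 with ⟨-, -, h'⟩ | ⟨h', -, -⟩
      · exact h' (hS₁irr _ h).1
      · exact h' hinv
  have hb' : ((q * u * a + q * (q - 1) * a ^ (q - 1) + q * u + 1 : ℕ) : ℝ) < ((p ^ q : ℕ) : ℝ) :=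
    Nat.cast_lt.2 (pow_bound ha0 hq3 hp S.le_pow)
  push_cast [Nat.cast_sub (show 1 ≤ q by omega)] at hb'
  have hu' : (0 : ℝ) < u := Nat.cast_pos.2 hu0
  have hq' : (0 : ℝ) < q := Nat.cast_pos.2 hq0
  have hau : 2 * (a : ℝ) ≤ u := by
    have hb2 : (2 : ℝ) ≤ b := by exact_mod_cast hb
    rw [hN] at hNab
    push_cast at hNab
    nlinarith [mul_le_mul_of_nonneg_right hb2 (Nat.cast_nonneg a : (0 : ℝ) ≤ a)]
  rw [mul_div_assoc', ← sub_pos]
  have key : (0 : ℝ) < (q : ℝ) ^ 2 * u ^ 2 * (Kn - a) - (q : ℝ) ^ 2 * u * ((q - 1) * (a : ℝ) ^ (q - 1)) := by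
    have hpq : (0 : ℝ) ≤ (p : ℝ) ^ q - 1 := sub_nonneg.2 (one_le_pow₀ (by
      exact_mod_cast S.facts.p_prime.one_le))
    have h1 := mul_le_mul_of_nonneg_left (mul_le_mul_of_nonneg_left hc' hpq) hq'.le
    have h2 := mul_le_mul_of_nonneg_left hNab (by positivity : (0 : ℝ) ≤ (q : ℝ) ^ 2 * a)
    have h3 := mul_le_mul_of_nonneg_left hau (by positivity : (0 : ℝ) ≤ (q : ℝ) ^ 2 * u)
    have h4 := mul_lt_mul_of_pos_left hb' (mul_pos hq' hu')
    nlinarith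
  have e : Kn - ((a : ℝ) + ((q : ℝ) - 1) * (a : ℝ) ^ (q - 1) / u) =
      ((q : ℝ) ^ 2 * u ^ 2 * (Kn - a) - (q : ℝ) ^ 2 * u * ((q - 1) * (a : ℝ) ^ (q - 1))) / ((q : ℝ) ^ 2 * u ^ 2) := by
    field_simp
    ring
  rw [e]
  positivity

end Split

/-- Peterfalvi (9.11): `S(H₀ C')` is coherent. -/
theorem FactorFacts.coherent_core [Fintype L] (f : FactorFacts K H U W₁ W₂ H₀ p)
    {G : Type*} [Group G] [Fintype G] {τ : (L → ℂ) → (G → ℂ)} {R : (L → ℂ) → Finset (G → ℂ)}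
    (hS : IsCoherenceSystem (indSet K H (H₀ ⊔ ⁅centMod H U H₀, centMod H U H₀⁆)) τ R)
    (hτ : IsLinearIsometryOn (suppChars K H) τ) :
    IsCoherent (indSet K H (H₀ ⊔ ⁅centMod H U H₀, centMod H U H₀⁆)) {1}ᶜ τ := by
  by_cases hg : Galois H U H₀
  · exact H57.coherent_constant_degree hS fun φ hφ ψ hψ => by
      rw [f.chief.galois_degree hg hφ, f.chief.galois_degree hg hψ]
  · obtain ⟨N₁, S⟩ := exists_split f hg
    exact S.coherent_core hS hτ

end Cfsg.Agent.H38.PF9
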