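import Cfsg.Agent.H38.PF9.CoreCoherence
import Cfsg.Agent.H57.PF7DadeMore
import Cfsg.Agent.S1500
import Cfsg.Agent.S1501

/-!
# Peterfalvi (9.11) for the Dade map
-/

set_option autoImplicit false

namespace Cfsg.Agent.H38.PF9

open Cfsg
open scoped commutatorElement

variable {G : Type*} [Group G] [Fintype G] {A : Set G} {M : Subgroup G} {R : G → Subgroup G} [Fintype M]
  {K H U W₁ W₂ H₀ : Subgroup M} {p : ℕ}

/-- The Dade map is a linear isometry on the virtual characters supported in `centSupp K H`. -/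
theorem dade_isometry_suppChars (hD : DadeHypothesis A M R) (hA : ∀ x : M, x ∈ centSupp K H → (x : G) ∈ A) :
    IsLinearIsometryOn (suppChars K H) (dadeIsometry A M R) := by
  have hsupp : ∀ {φ : M → ℂ}, φ ∈ suppChars K H → ∀ x : M, (x : G) ∉ A → φ x = 0 :=
    fun {φ} hφ x hx => hφ.2 x fun h => hx (hA x h)
  refine ⟨fun a ha b hb => H57.dade_add hD (H57.gen_classFunction ha.1) (H57.gen_classFunction hb.1),
    fun a ha k => ?_, fun a ha b hb => (S1500.result A M R hD a (H57.gen_classFunction ha.1) (hsupp ha)).1 b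
      (H57.gen_classFunction hb.1) (hsupp hb), fun a ha => S1501.result A M R hD a ha.1 (hsupp ha)⟩
  rw [← Int.cast_smul_eq_zsmul ℂ, H57.dade_smul hD (H57.gen_classFunction ha.1), Int.cast_smul_eq_zsmul]

/-- Peterfalvi (9.11): `S(H₀ C')` is coherent for the Dade map. -/
theorem FactorFacts.coherent_core_dade (f : FactorFacts K H U W₁ W₂ H₀ p) (hD : DadeHypothesis A M R)
    (hA : ∀ x : M, x ∈ centSupp K H → (x : G) ∈ A) {Rf : (M → ℂ) → Finset (G → ℂ)}
    (hS : IsCoherenceSystem (indSet K H (H₀ ⊔ ⁅centMod H U H₀, centMod H U H₀⁆)) (dadeIsometry A M R) Rf) :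
    IsCoherent (indSet K H (H₀ ⊔ ⁅centMod H U H₀, centMod H U H₀⁆)) {1}ᶜ (dadeIsometry A M R) :=
  f.coherent_core hS (dade_isometry_suppChars hD hA)

end Cfsg.Agent.H38.PF9
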