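import Cfsg.Agent.H38.PF9.Induced
import Cfsg.Agent.H57.CohBasic

/-!
# The support of the members of `S(A)`

A character of `K` non-trivial on `H` sums to zero on every coset of `H`; it therefore vanishes at every
non-identity element of `K` with trivial centraliser in `H`.
-/

set_option autoImplicit false

namespace Cfsg.Agent.H38.PF9

open Cfsg

variable {L : Type*} [Group L] {K H : Subgroup L}

/-- The non-identity elements of `K` that centralise some non-identity element of `H`. -/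
def centSupp (K H : Subgroup L) : Set L := {x | x ∈ K ∧ x ≠ 1 ∧ ∃ h ∈ H, h ≠ 1 ∧ x * h = h * x}

theorem centSupp_conj [hK : K.Normal] [hH : H.Normal] (g : L) {x : L} (hx : x ∈ centSupp K H) :
    g * x * g⁻¹ ∈ centSupp K H := by
  obtain ⟨h1, h2, h, hh, hh1, hc⟩ := hx
  refine ⟨hK.conj_mem x h1 g, fun e => h2 (conj_eq_one_iff.1 e), g * h * g⁻¹, hH.conj_mem h hh g,
    fun e => hh1 (conj_eq_one_iff.1 e), ?_⟩
  calc g * x * g⁻¹ * (g * h * g⁻¹) = g * (x * h) * g⁻¹ := by group
    _ = g * (h * x) * g⁻¹ := by rw [hc]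
    _ = g * h * g⁻¹ * (g * x * g⁻¹) := by group

/-- Without fixed points the commutator map covers all of `H`. -/
theorem exists_comm_eq [Finite L] [hH : H.Normal] {x : L}
    (hx : ∀ h ∈ H, x * h = h * x → h = 1) {y : L} (hy : y ∈ H) : ∃ h ∈ H, h * x * h⁻¹ * x⁻¹ = y := by
  let f : H → H := fun h => ⟨(h : L) * x * (h : L)⁻¹ * x⁻¹, by
    simpa [mul_assoc] using H.mul_mem h.2 (hH.conj_mem _ (H.inv_mem h.2) x)⟩
  have hf : Function.Injective f := by
    intro a b e
    have e' : (a : L) * x * (a : L)⁻¹ = (b : L) * x * (b : L)⁻¹ := mul_right_cancel (congrArg Subtype.val e)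
    have h1 := hx ((b : L)⁻¹ * a) (H.mul_mem (H.inv_mem b.2) a.2) (by
      calc x * ((b : L)⁻¹ * a) = (b : L)⁻¹ * ((b : L) * x * (b : L)⁻¹) * a := by group
        _ = (b : L)⁻¹ * ((a : L) * x * (a : L)⁻¹) * a := by rw [e']
        _ = (b : L)⁻¹ * a * x := by group)
    exact Subtype.ext (inv_mul_eq_one.1 h1).symm
  obtain ⟨h, hh⟩ := (Finite.injective_iff_surjective.1 hf) ⟨y, hy⟩
  exact ⟨h, h.2, congrArg Subtype.val hh⟩

open scoped Classical in
/-- A character non-trivial on `H` sums to zero on the cosets of `H`. -/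
theorem Above.sum_coset_eq_zero [Finite L] [hH : H.Normal] {A : Subgroup L} {θ : K → ℂ}
    (hθ : Above K H A θ) [Fintype (H.subgroupOf K)] (k : K) :
    ∑ a : H.subgroupOf K, θ ((a : K) * k) = 0 := by
  obtain ⟨n, ρ, hρ, rfl⟩ := hθ.irr
  haveI := hρ
  haveI hNn : (H.subgroupOf K).Normal := hH.subgroupOf K
  set P : (Fin n → ℂ) →ₗ[ℂ] (Fin n → ℂ) := ∑ a : (H.subgroupOf K), ρ (a : K) with hP
  have hcomm : ∀ g : K, ρ g * P = P * ρ g := by
    intro g
    rw [hP, Finset.mul_sum, Finset.sum_mul]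
    refine Fintype.sum_equiv (MulAut.conjNormal g).toEquiv _ _ fun a => ?_
    rw [← map_mul, ← map_mul]
    congr 1
    show g * (a : K) = ((MulAut.conjNormal g a : (H.subgroupOf K)) : K) * g
    rw [MulAut.conjNormal_apply]; group
  have hfix : ∀ b : (H.subgroupOf K), ρ (b : K) * P = P := by
    intro b
    rw [hP, Finset.mul_sum]
    refine Fintype.sum_equiv (Equiv.mulLeft b) _ _ fun a => ?_
    rw [← map_mul]; rfl
  let S : Subrepresentation ρ := ⟨LinearMap.range P, fun g v hv => by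
    obtain ⟨w, rfl⟩ := hv
    exact ⟨ρ g w, (LinearMap.congr_fun (hcomm g) w).symm⟩⟩
  have hP0 : P = 0 := by
    rcases IsSimpleOrder.eq_bot_or_eq_top S with h | h
    · exact LinearMap.range_eq_bot.1 (congrArg Subrepresentation.toSubmodule h)
    · exfalso
      obtain ⟨a, ha, hne⟩ := hθ.nontriv
      refine hne ?_
      have htop : LinearMap.range P = ⊤ := congrArg Subrepresentation.toSubmodule h
      have hone : ρ a = 1 := by
        refine LinearMap.ext fun v => ?_
        obtain ⟨w, rfl⟩ : v ∈ LinearMap.range P := htop ▸ Submodule.mem_top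
        exact LinearMap.congr_fun (hfix ⟨a, Subgroup.mem_subgroupOf.2 ha⟩) w
      simp [Representation.character, hone]
  have h1 : ∑ a : (H.subgroupOf K), ρ.character ((a : K) * k) = LinearMap.trace ℂ (Fin n → ℂ) (P * ρ k) := by
    rw [hP, Finset.sum_mul, map_sum]
    refine Finset.sum_congr rfl fun a _ => ?_
    rw [← map_mul]; rfl
  rw [h1, hP0, zero_mul, map_zero]

/-- Vanishing outside `centSupp`. -/
theorem Above.vanish [Finite L] [hH : H.Normal] (hHK : H ≤ K) {A : Subgroup L} {θ : K → ℂ}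
    (hθ : Above K H A θ) (x : K) (hx1 : x ≠ 1) (hx : (x : L) ∉ centSupp K H) : θ x = 0 := by
  classical
  haveI := Fintype.ofFinite (H.subgroupOf K)
  haveI := Fintype.ofFinite K
  have hcf := H26.isClassFunction_of_isCharacter (H26.isCharacter_of_irr hθ.irr)
  have hfp : ∀ h ∈ H, (x : L) * h = h * x → h = 1 := fun h hh hc => by
    by_contra hne
    exact hx ⟨x.2, fun e => hx1 (Subtype.ext e), h, hh, hne, hc⟩
  have hval : ∀ a : H.subgroupOf K, θ ((a : K) * x) = θ x := by
    intro a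
    obtain ⟨h, hh, e⟩ := exists_comm_eq hfp (Subgroup.mem_subgroupOf.1 a.2)
    rw [show (a : K) * x = ⟨h, hHK hh⟩ * x * ⟨h, hHK hh⟩⁻¹ from Subtype.ext (by
      simp only [Subgroup.coe_mul, Subgroup.coe_inv, ← e]; group)]
    exact hcf x _
  have h := hθ.sum_coset_eq_zero x
  rw [Finset.sum_congr rfl (fun a _ => hval a), Finset.sum_const, Finset.card_univ, nsmul_eq_mul,
    mul_eq_zero] at h
  exact h.resolve_left (Nat.cast_ne_zero.2 Fintype.card_ne_zero)

theorem indSet_vanish [Fintype L] [hK : K.Normal] [hH : H.Normal] (hHK : H ≤ K) {A : Subgroup L} {φ : L → ℂ}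
    (hφ : φ ∈ indSet K H A) {x : L} (hx1 : x ≠ 1) (hx : x ∉ centSupp K H) : φ x = 0 := by
  obtain ⟨θ, hθ, rfl⟩ := hφ
  rw [H25.indFun_apply, Finset.sum_eq_zero, mul_zero]
  intro y _
  by_cases hy : y⁻¹ * x * y ∈ K
  · rw [H25.extendByZero_of_mem K _ hy]
    refine hθ.vanish hHK _ (fun e => hx1 ?_) fun h => hx (by simpa [mul_assoc] using centSupp_conj y h)
    have e' : y⁻¹ * x * y = 1 := congrArg Subtype.val e
    calc x = y * (y⁻¹ * x * y) * y⁻¹ := by group
      _ = 1 := by rw [e']; group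
  · exact H25.extendByZero_of_notMem K _ hy

/-- A member of `S(A)` sums to zero on the cosets of `H` in `K`. -/
theorem indSet_sum_coset [Fintype L] [hK : K.Normal] [hH : H.Normal] (hHK : H ≤ K) {A : Subgroup L} {φ : L → ℂ}
    (hφ : φ ∈ indSet K H A) [Fintype H] {k : L} (hk : k ∈ K) : ∑ a : H, φ ((a : L) * k) = 0 := by
  classical
  haveI := Fintype.ofFinite (H.subgroupOf K)
  obtain ⟨θ, hθ, rfl⟩ := hφ
  simp only [H25.indFun_apply, ← Finset.mul_sum]
  rw [Finset.sum_comm, Finset.sum_eq_zero, mul_zero]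
  intro y _
  have hk' : y⁻¹ * k * y ∈ K := by simpa using hK.conj_mem k hk y⁻¹
  rw [← hθ.sum_coset_eq_zero ⟨_, hk'⟩]
  refine Fintype.sum_equiv ((MulAut.conjNormal y⁻¹ : MulAut H).toEquiv.trans
    (Subgroup.subgroupOfEquivOfLe hHK).symm.toEquiv) _ _ fun a => ?_
  have ha : y⁻¹ * ((a : L) * k) * y = (y⁻¹ * a * y) * (y⁻¹ * k * y) := by group
  have hmem : y⁻¹ * ((a : L) * k) * y ∈ K := by
    simpa using hK.conj_mem _ (K.mul_mem (hHK a.2) hk) y⁻¹
  rw [H25.extendByZero_of_mem K _ hmem]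
  refine congrArg θ (Subtype.ext ?_)
  simp [Subgroup.subgroupOfEquivOfLe, mul_assoc]

/-- The combinations of `S(A)` of degree zero are virtual characters supported in `centSupp`. -/
theorem zspanOn_indSet_supp [Fintype L] [hK : K.Normal] [hH : H.Normal] (hHK : H ≤ K) {A : Subgroup L}
    {ψ : L → ℂ} (h : ψ ∈ zspanOn (indSet K H A) {1}ᶜ) :
    IsGeneralizedCharacter L ψ ∧ ∀ x, x ∉ centSupp K H → ψ x = 0 := by
  haveI := Fintype.ofFinite K
  obtain ⟨h1, h2⟩ := h
  refine ⟨?_, fun x hx => ?_⟩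
  · refine Submodule.span_induction (p := fun f _ => IsGeneralizedCharacter L f) ?_ H57.gen_zero
      (fun a b _ _ ha hb => H57.gen_add ha hb) (fun n a _ ha => H57.gen_zsmul ha n) h1
    rintro _ ⟨θ, hθ, rfl⟩
    exact H57.gen_of_char (H25.isCharacter_indFun K (H26.isCharacter_of_irr hθ.irr))
  · by_cases hx1 : x = 1
    · exact h2 x (by simp [hx1])
    refine Submodule.span_induction (p := fun f _ => f x = 0) (fun φ hφ => indSet_vanish hHK hφ hx1 hx) rfl
      (fun a b _ _ ha hb => by simp [ha, hb]) (fun n a _ ha => by simp [ha]) h1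

end Cfsg.Agent.H38.PF9
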